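import Mathlib
import Cfsg.Prelude.Def_GeometricClasses
import Cfsg.Agent.Lib.Helper71.Asch0
import Cfsg.Agent.Lib.Helper86.ASB8Defs

/-!
# S5630 piece B8.DIM (for helper86): conjugate groups spanned by matrix units have matrix units of
the same size.
-/

set_option autoImplicit false

namespace Cfsg.Agent.Lib.Helper59.ASB8DIM

open Matrix Cfsg.Geo Cfsg.Agent.Lib.Helper71.Asch Cfsg.Agent.Lib.Helper86.ASB8

variable {F : Type*} [Field F]

/-- The linear map `A ↦ ∑ a b, A a b • E a b`. -/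
noncomputable def dimPhi {n d : ℕ} (E : Fin d → Fin d → Matrix (Fin n) (Fin n) F) :
    Matrix (Fin d) (Fin d) F →ₗ[F] Matrix (Fin n) (Fin n) F where
  toFun A := ∑ a, ∑ b, A a b • E a b
  map_add' A B := by simp [add_smul, Finset.sum_add_distrib]
  map_smul' c A := by simp [Finset.smul_sum, smul_smul]

theorem dimPhi_apply {n d : ℕ} (E : Fin d → Fin d → Matrix (Fin n) (Fin n) F)
    (A : Matrix (Fin d) (Fin d) F) : dimPhi E A = ∑ a, ∑ b, A a b • E a b := rfl

theorem dimPhi_inj {n d : ℕ} (hn : 1 ≤ n) (E : Fin d → Fin d → Matrix (Fin n) (Fin n) F)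
    (hE : IsMU E) : Function.Injective (dimPhi E) := by
  rw [← LinearMap.ker_eq_bot, LinearMap.ker_eq_bot']
  intro A hA
  rw [dimPhi_apply] at hA
  ext a' b'
  have key : ∀ c, E c a' * (∑ a, ∑ b, A a b • E a b) * E b' c = A a' b' • E c c := by
    intro c
    simp only [Finset.mul_sum, Finset.sum_mul, Matrix.mul_smul, Matrix.smul_mul, hE.mul,
      ite_mul, zero_mul, smul_ite, smul_zero, Finset.sum_ite_eq, Finset.sum_ite_eq',
      Finset.mem_univ, if_true]
    rw [Finset.sum_eq_single a']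
    · simp
    · intro x _ hx
      simp [Ne.symm hx]
    · simp
  have hsum : ∑ c, A a' b' • E c c = 0 := by
    rw [Finset.sum_congr rfl fun c _ => (key c).symm]
    simp [hA]
  rw [← Finset.smul_sum, hE.one] at hsum
  have h00 := congrFun (congrFun hsum ⟨0, hn⟩) ⟨0, hn⟩
  simpa using h00

theorem dimPhi_finrank {n d : ℕ} (hn : 1 ≤ n) (E : Fin d → Fin d → Matrix (Fin n) (Fin n) F)
    (hE : IsMU E) (N : Subgroup (GL (Fin n) F))
    (hs : ∀ X : Matrix (Fin n) (Fin n) F, X ∈ Submodule.span F (matrixSet N) ↔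
      ∃ A : Matrix (Fin d) (Fin d) F, X = ∑ a, ∑ b, A a b • E a b) :
    Module.finrank F ↥(Submodule.span F (matrixSet N)) = d * d := by
  have hr : LinearMap.range (dimPhi E) = Submodule.span F (matrixSet N) := by
    ext X
    rw [LinearMap.mem_range, hs X]
    constructor
    · rintro ⟨A, rfl⟩; exact ⟨A, rfl⟩
    · rintro ⟨A, rfl⟩; exact ⟨A, rfl⟩
  rw [← hr, LinearMap.finrank_range_of_inj (dimPhi_inj hn E hE)]
  simp [Module.finrank_matrix]

/-- Conjugation by `h` as a linear equivalence of the matrix algebra. -/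
noncomputable def dimConj {n : ℕ} (h : GL (Fin n) F) :
    Matrix (Fin n) (Fin n) F ≃ₗ[F] Matrix (Fin n) (Fin n) F where
  toFun X := (h : Matrix (Fin n) (Fin n) F) * X * ((h⁻¹ : GL (Fin n) F) : Matrix (Fin n) (Fin n) F)
  map_add' X Y := by simp [mul_add, add_mul]
  map_smul' c X := by simp
  invFun X := ((h⁻¹ : GL (Fin n) F) : Matrix (Fin n) (Fin n) F) * X * (h : Matrix (Fin n) (Fin n) F)
  left_inv X := by
    have h1 : ((h⁻¹ : GL (Fin n) F) : Matrix (Fin n) (Fin n) F) * (h : Matrix (Fin n) (Fin n) F) = 1 := by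
      rw [← Units.val_mul, inv_mul_cancel]; rfl
    calc ((h⁻¹ : GL (Fin n) F) : Matrix (Fin n) (Fin n) F) *
          ((h : Matrix (Fin n) (Fin n) F) * X * ((h⁻¹ : GL (Fin n) F) : Matrix (Fin n) (Fin n) F)) *
          (h : Matrix (Fin n) (Fin n) F)
        = (((h⁻¹ : GL (Fin n) F) : Matrix (Fin n) (Fin n) F) * (h : Matrix (Fin n) (Fin n) F)) * X *
          (((h⁻¹ : GL (Fin n) F) : Matrix (Fin n) (Fin n) F) * (h : Matrix (Fin n) (Fin n) F)) := by
          simp only [mul_assoc]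
      _ = X := by rw [h1, one_mul, mul_one]
  right_inv X := by
    have h1 : (h : Matrix (Fin n) (Fin n) F) * ((h⁻¹ : GL (Fin n) F) : Matrix (Fin n) (Fin n) F) = 1 := by
      rw [← Units.val_mul, mul_inv_cancel]; rfl
    calc (h : Matrix (Fin n) (Fin n) F) *
          (((h⁻¹ : GL (Fin n) F) : Matrix (Fin n) (Fin n) F) * X * (h : Matrix (Fin n) (Fin n) F)) *
          ((h⁻¹ : GL (Fin n) F) : Matrix (Fin n) (Fin n) F)
        = ((h : Matrix (Fin n) (Fin n) F) * ((h⁻¹ : GL (Fin n) F) : Matrix (Fin n) (Fin n) F)) * X *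
          ((h : Matrix (Fin n) (Fin n) F) * ((h⁻¹ : GL (Fin n) F) : Matrix (Fin n) (Fin n) F)) := by
          simp only [mul_assoc]
      _ = X := by rw [h1, one_mul, mul_one]

theorem dimConj_apply {n : ℕ} (h : GL (Fin n) F) (X : Matrix (Fin n) (Fin n) F) :
    dimConj h X = (h : Matrix (Fin n) (Fin n) F) * X *
      ((h⁻¹ : GL (Fin n) F) : Matrix (Fin n) (Fin n) F) := rfl

/-- B8.DIM: conjugate groups spanned by matrix units have matrix units of the same size. -/
theorem dim_eq {n : ℕ} (hn : 1 ≤ n) {d₁ d₂ : ℕ}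
    (E₁ : Fin d₁ → Fin d₁ → Matrix (Fin n) (Fin n) F)
    (E₂ : Fin d₂ → Fin d₂ → Matrix (Fin n) (Fin n) F)
    (hE₁ : IsMU E₁) (hE₂ : IsMU E₂) (N₁ N₂ : Subgroup (GL (Fin n) F)) (h : GL (Fin n) F)
    (hconj : N₁.map (MulAut.conj h).toMonoidHom = N₂)
    (hs₁ : ∀ X : Matrix (Fin n) (Fin n) F, X ∈ Submodule.span F (matrixSet N₁) ↔
      ∃ A : Matrix (Fin d₁) (Fin d₁) F, X = ∑ a, ∑ b, A a b • E₁ a b)
    (hs₂ : ∀ X : Matrix (Fin n) (Fin n) F, X ∈ Submodule.span F (matrixSet N₂) ↔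
      ∃ A : Matrix (Fin d₂) (Fin d₂) F, X = ∑ a, ∑ b, A a b • E₂ a b) : d₁ = d₂ := by
  have h1 := dimPhi_finrank hn E₁ hE₁ N₁ hs₁
  have h2 := dimPhi_finrank hn E₂ hE₂ N₂ hs₂
  have himg : (dimConj h) '' matrixSet N₁ = matrixSet N₂ := by
    ext X
    constructor
    · rintro ⟨Y, ⟨x, hx, rfl⟩, rfl⟩
      refine ⟨h * x * h⁻¹, ?_, ?_⟩
      · rw [← hconj]
        exact ⟨x, hx, by simp [MulAut.conj_apply]⟩
      · simp [dimConj_apply]
    · rintro ⟨y, hy, rfl⟩
      rw [← hconj] at hy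
      obtain ⟨x, hx, rfl⟩ := hy
      exact ⟨(x : Matrix (Fin n) (Fin n) F), ⟨x, hx, rfl⟩, by simp [dimConj_apply, MulAut.conj_apply]⟩
  have hmap : (Submodule.span F (matrixSet N₁)).map (dimConj h : Matrix (Fin n) (Fin n) F →ₗ[F] Matrix (Fin n) (Fin n) F)
      = Submodule.span F (matrixSet N₂) := by
    rw [Submodule.map_span]
    congr 1
  have h3 : Module.finrank F ↥(Submodule.span F (matrixSet N₂)) =
      Module.finrank F ↥(Submodule.span F (matrixSet N₁)) := by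
    rw [← hmap]
    exact LinearEquiv.finrank_map_eq (dimConj h) _
  rw [h1, h2] at h3
  exact (Nat.mul_self_inj.mp h3).symm

end Cfsg.Agent.Lib.Helper59.ASB8DIM
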