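import Mathlib
import Cfsg.Prelude.Def_GeometricClasses
import Cfsg.Agent.Lib.Helper71.Asch0
import Cfsg.Agent.Lib.Helper86.ASB8Defs

/-!
# S5630 piece B8.SCAL (for helper86): a non-scalar group spanned by `d × d` matrix units has `d ≥ 2`.
-/

set_option autoImplicit false

namespace Cfsg.Agent.Lib.Helper59.ASB8SCAL

open Matrix Cfsg.Geo Cfsg.Agent.Lib.Helper71.Asch Cfsg.Agent.Lib.Helper86.ASB8

variable {F : Type*} [Field F]

/-- B8.SCAL: a non-scalar group spanned by `d × d` matrix units has `d ≥ 2`. -/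
theorem two_le_of_not_scalar {n : ℕ} (hn : 1 ≤ n) {d : ℕ}
    (E : Fin d → Fin d → Matrix (Fin n) (Fin n) F) (hE : IsMU E) (N : Subgroup (GL (Fin n) F))
    (hs : ∀ X : Matrix (Fin n) (Fin n) F, X ∈ Submodule.span F (matrixSet N) ↔
      ∃ A : Matrix (Fin d) (Fin d) F, X = ∑ a, ∑ b, A a b • E a b)
    (hns : ¬ N ≤ scalars (Fin n) F) : 2 ≤ d := by
  by_contra hd
  push Not at hd
  haveI : Nonempty (Fin n) := ⟨⟨0, hn⟩⟩
  have h10 : (1 : Matrix (Fin n) (Fin n) F) ≠ 0 := one_ne_zero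
  apply hns
  intro x hx
  have hxs : (x : Matrix (Fin n) (Fin n) F) ∈ Submodule.span F (matrixSet N) :=
    Submodule.subset_span ⟨x, hx, rfl⟩
  obtain ⟨A, hA⟩ := (hs _).mp hxs
  have h2 : (x : Matrix (Fin n) (Fin n) F) * ((x⁻¹ : GL (Fin n) F) : Matrix (Fin n) (Fin n) F) = 1 := by
    rw [← Units.val_mul, mul_inv_cancel]; rfl
  interval_cases d
  · have h1 := hE.one
    simp at h1
  · have h1 : E 0 0 = 1 := by simpa using hE.one
    have hx1 : (x : Matrix (Fin n) (Fin n) F) = A 0 0 • (1 : Matrix (Fin n) (Fin n) F) := by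
      simpa [h1] using hA
    have hne : A 0 0 ≠ 0 := by
      intro h0
      rw [hx1, h0, zero_smul, zero_mul] at h2
      exact h10 h2.symm
    rw [mem_scalars_iff]
    exact ⟨Units.mk0 (A 0 0) hne, by simpa using hx1⟩

end Cfsg.Agent.Lib.Helper59.ASB8SCAL
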