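import Mathlib
import Cfsg.Prelude.Def_GeometricClasses
import Cfsg.Prelude.Def_LieClassical

/-!
# Project U52 (helper59), S5796: `SU_5(2)`, the field-extension class is not maximal

Definition of the "concrete claim": there are an element `c₀` of order `11` of
`S = GU_5(2) ⊓ SL_5(4)` and a proper subgroup `M₀` of `S` containing the normaliser in `S`
of `⟨c₀⟩` together with an element not normalising `⟨c₀⟩`.
-/

set_option autoImplicit false

namespace Cfsg.Agent.Lib.Helper59.U52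

open Matrix Cfsg.Geo

/-- the concrete claim -/
def CC (F : Type*) [Field F] : Prop :=
  ∃ (c₀ : GL (Fin 5) F) (M₀ : Subgroup (GL (Fin 5) F)),
    c₀ ∈ Cfsg.GU 5 F 2 ⊓ specialLinear (Fin 5) F ∧ orderOf c₀ = 11 ∧
    M₀ ≤ Cfsg.GU 5 F 2 ⊓ specialLinear (Fin 5) F ∧
    M₀ ≠ Cfsg.GU 5 F 2 ⊓ specialLinear (Fin 5) F ∧
    (∀ g ∈ Cfsg.GU 5 F 2 ⊓ specialLinear (Fin 5) F,
      g * c₀ * g⁻¹ ∈ Subgroup.zpowers c₀ → g ∈ M₀) ∧
    ∃ t ∈ M₀, t * c₀ * t⁻¹ ∉ Subgroup.zpowers c₀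

end Cfsg.Agent.Lib.Helper59.U52
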