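import Mathlib
import Cfsg.Prelude.Def_Solvable
import Cfsg.Prelude.Def_Local
import Cfsg.Agent.Lib.Helper18.TLDefs
import Cfsg.Agent.Lib.Helper30.Cores

/-!
# S3797 piece EXW0 (helper59): a soluble group `G` with `O_2(G) ≠ G` has a nontrivial subgroup
`W0` of odd order with `G = O_2(G) N_G(W0)`.
-/

set_option autoImplicit false

namespace Cfsg.Agent.Lib.Helper18.TL

open Subgroup
open scoped commutatorElement

universe u

variable {G : Type u} [Group G]

/-- a nontrivial finite soluble group without nontrivial normal 2-subgroups has a nontrivial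
normal `r`-subgroup for an odd prime `r` -/
private theorem exw0_normal_rgroup {Q : Type u} [Group Q] [Finite Q] [Nontrivial Q]
    (hs : Group.IsSolvable Q) (h2 : ∀ N : Subgroup Q, N.Normal → IsPGroup 2 N → N = ⊥) :
    ∃ (r : ℕ) (R : Subgroup Q), r.Prime ∧ r ≠ 2 ∧ R.Normal ∧ IsPGroup r R ∧ R ≠ ⊥ := by
  classical
  obtain ⟨n, hn⟩ := hs.solvable
  have hex : ∃ n, derivedSeries Q n = ⊥ := ⟨n, hn⟩
  have hm : derivedSeries Q (Nat.find hex) = ⊥ := Nat.find_spec hex
  have hm0 : Nat.find hex ≠ 0 := by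
    intro h0
    rw [h0, derivedSeries_zero] at hm
    exact top_ne_bot hm
  obtain ⟨k, hk⟩ := Nat.exists_eq_succ_of_ne_zero hm0
  obtain ⟨M, hMdef⟩ : ∃ M : Subgroup Q, M = derivedSeries Q k := ⟨_, rfl⟩
  have hM : M ≠ ⊥ := by
    rw [hMdef]
    exact Nat.find_min hex (by omega)
  have hMn : M.Normal := by rw [hMdef]; exact derivedSeries_normal Q k
  have hMab : ⁅M, M⁆ = ⊥ := by
    rw [hMdef, ← derivedSeries_succ, ← Nat.succ_eq_add_one, ← hk]; exact hm
  have hcomm : ∀ a ∈ M, ∀ b ∈ M, a * b = b * a := by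
    intro a ha b hb
    have h1 : ⁅a, b⁆ ∈ ⁅M, M⁆ := Subgroup.commutator_mem_commutator ha hb
    rw [hMab, Subgroup.mem_bot] at h1
    exact commutatorElement_eq_one_iff_mul_comm.mp h1
  obtain ⟨x, hxM, hx1⟩ : ∃ x ∈ M, x ≠ 1 := by
    by_contra hcon
    push Not at hcon
    exact hM ((Subgroup.eq_bot_iff_forall M).mpr hcon)
  have hox : orderOf x ≠ 1 := by
    intro h; exact hx1 (orderOf_eq_one_iff.mp h)
  obtain ⟨r, hr, hrx⟩ := Nat.exists_prime_and_dvd hox
  have hox0 : orderOf x ≠ 0 := (orderOf_pos x).ne'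
  have hy : orderOf (x ^ (orderOf x / r)) = r := orderOf_pow_orderOf_div hox0 hrx
  obtain ⟨y, hydef⟩ : ∃ y : Q, y = x ^ (orderOf x / r) := ⟨_, rfl⟩
  rw [← hydef] at hy
  have hyM : y ∈ M := by rw [hydef]; exact pow_mem hxM _
  have hyr : y ^ r = 1 := by rw [← hy]; exact pow_orderOf_eq_one y
  have hy1 : y ≠ 1 := by
    intro h
    rw [h, orderOf_one] at hy
    exact hr.one_lt.ne hy
  let R : Subgroup Q :=
    { carrier := {a | a ∈ M ∧ ∃ k : ℕ, a ^ (r ^ k) = 1}
      one_mem' := ⟨one_mem M, 0, by simp⟩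
      mul_mem' := by
        rintro a b ⟨ha, k, hk⟩ ⟨hb, l, hl⟩
        refine ⟨mul_mem ha hb, k + l, ?_⟩
        have hc : Commute a b := hcomm a ha b hb
        rw [hc.mul_pow, pow_add, pow_mul, hk, one_pow, mul_comm (r ^ k) (r ^ l), pow_mul, hl,
          one_pow, one_mul]
      inv_mem' := by
        rintro a ⟨ha, k, hk⟩
        exact ⟨inv_mem ha, k, by rw [inv_pow, hk, inv_one]⟩ }
  have hRmem : ∀ a : Q, a ∈ R ↔ a ∈ M ∧ ∃ k : ℕ, a ^ (r ^ k) = 1 := fun a => Iff.rfl
  have hRn : R.Normal := by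
    constructor
    intro a ha g
    rw [hRmem] at ha ⊢
    obtain ⟨haM, k, hk⟩ := ha
    refine ⟨hMn.conj_mem a haM g, k, ?_⟩
    rw [conj_pow, hk, mul_one, mul_inv_cancel]
  have hRp : IsPGroup r R := by
    rintro ⟨a, ha⟩
    obtain ⟨_, k, hk⟩ := (hRmem a).mp ha
    exact ⟨k, Subtype.ext hk⟩
  have hRne : R ≠ ⊥ := by
    intro h
    have : y ∈ R := (hRmem y).mpr ⟨hyM, 1, by rw [pow_one]; exact hyr⟩
    rw [h, Subgroup.mem_bot] at this
    exact hy1 this
  refine ⟨r, R, hr, ?_, hRn, hRp, hRne⟩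
  intro hr2
  rw [hr2] at hRp
  exact hRne (h2 R hRn hRp)

-- piece EXW0
theorem exists_W0 [Finite G] (hs : Group.IsSolvable G) (hP : Cfsg.pCore 2 G ≠ ⊤) :
    ∃ W0 : Subgroup G, Odd (Nat.card W0) ∧ W0 ≠ ⊥ ∧
      Cfsg.pCore 2 G ⊔ normalizer (W0 : Set G) = ⊤ := by
  classical
  obtain ⟨O, hO⟩ : ∃ O : Subgroup G, O = Cfsg.pCore 2 G := ⟨_, rfl⟩
  rw [← hO] at hP ⊢
  haveI hOn : O.Normal := by
    rw [hO]
    haveI := Cfsg.Agent.Lib.Helper30.pCore_characteristic (G := G) 2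
    infer_instance
  have hOp : IsPGroup 2 O := by rw [hO]; exact Cfsg.Agent.Lib.Helper30.pCore_isPGroup 2
  haveI : Nontrivial (G ⧸ O) := QuotientGroup.nontrivial_iff.mpr hP
  haveI := hs
  have hsQ : Group.IsSolvable (G ⧸ O) := inferInstance
  obtain ⟨a, ha⟩ := IsPGroup.iff_card.mp hOp
  have h2 : ∀ N : Subgroup (G ⧸ O), N.Normal → IsPGroup 2 N → N = ⊥ := by
    intro N hN hNp
    haveI := hN
    have h1 : N.comap (QuotientGroup.mk' O) ≤ O := by
      refine le_of_le_of_eq ?_ hO.symm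
      apply Cfsg.Agent.Lib.Helper30.le_pCore_of_normal inferInstance
      obtain ⟨c, hc⟩ := IsPGroup.iff_card.mp hNp
      haveI : Fact (Nat.Prime 2) := ⟨Nat.prime_two⟩
      apply IsPGroup.of_card (n := a + c)
      rw [Cfsg.Agent.Lib.Helper30.card_comap_mk', ha, hc, pow_add]
    rw [eq_bot_iff]
    intro y hy
    obtain ⟨x, rfl⟩ := QuotientGroup.mk'_surjective O y
    rw [Subgroup.mem_bot]
    exact (QuotientGroup.eq_one_iff x).mpr (h1 hy)
  obtain ⟨r, R, hr, hr2, hRn, hRp, hRne⟩ := exw0_normal_rgroup hsQ h2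
  haveI := hRn
  haveI : Fact r.Prime := ⟨hr⟩
  obtain ⟨A, hA⟩ : ∃ A : Subgroup G, A = R.comap (QuotientGroup.mk' O) := ⟨_, rfl⟩
  haveI hAn : A.Normal := by rw [hA]; infer_instance
  have hAcard : Nat.card A = Nat.card O * Nat.card R := by
    rw [hA]; exact Cfsg.Agent.Lib.Helper30.card_comap_mk' O R
  have hOA : O ≤ A := by
    intro x hx
    rw [hA, Subgroup.mem_comap]
    have : QuotientGroup.mk' O x = 1 := (QuotientGroup.eq_one_iff x).mpr hx
    rw [this]
    exact one_mem _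
  obtain ⟨b, hb⟩ := IsPGroup.iff_card.mp hRp
  have hb0 : b ≠ 0 := by
    intro h0
    rw [h0, pow_zero] at hb
    exact hRne (Subgroup.card_eq_one.mp hb)
  have hrodd : Odd r := hr.odd_of_ne_two hr2
  obtain ⟨P⟩ : Nonempty (Sylow r A) := inferInstance
  obtain ⟨W0, hW0⟩ : ∃ W0 : Subgroup G, W0 = (P : Subgroup A).map A.subtype := ⟨_, rfl⟩
  have hW0A : W0 ≤ A := by
    rw [hW0]; exact Subgroup.map_subtype_le _
  have hfac : (2 ^ a * r ^ b).factorization r = b := by
    rw [Nat.factorization_mul (pow_ne_zero _ (by norm_num)) (pow_ne_zero _ hr.ne_zero),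
      Nat.factorization_pow, Nat.factorization_pow]
    simp only [Finsupp.coe_add, Finsupp.coe_smul, Pi.add_apply, Pi.smul_apply, smul_eq_mul]
    rw [Nat.Prime.factorization_self hr,
      Nat.factorization_eq_zero_of_not_dvd (fun h => hr2 ((Nat.prime_dvd_prime_iff_eq hr Nat.prime_two).mp h))]
    simp
  have hW0card : Nat.card W0 = r ^ b := by
    rw [hW0, Subgroup.card_map_of_injective (Subgroup.subtype_injective A),
      Sylow.card_eq_multiplicity, hAcard, ha, hb, hfac]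
  refine ⟨W0, ?_, ?_, ?_⟩
  · rw [hW0card]; exact hrodd.pow
  · intro h
    rw [h, Subgroup.card_bot] at hW0card
    have : 1 < r ^ b := Nat.one_lt_pow hb0 hr.one_lt
    omega
  · have hfr : normalizer ((W0 : Subgroup G) : Set G) ⊔ A = ⊤ := by
      rw [hW0]; exact Sylow.normalizer_sup_eq_top P
    have hAle : A ≤ O ⊔ W0 := by
      have hle : O ⊔ W0 ≤ A := sup_le hOA hW0A
      have hcop : (Nat.card O).Coprime (Nat.card W0) := by
        rw [ha, hW0card]
        apply Nat.Coprime.pow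
        rw [Nat.coprime_primes Nat.prime_two hr]
        exact fun h => hr2 h.symm
      have hdvd : Nat.card O * Nat.card W0 ∣ Nat.card (O ⊔ W0 : Subgroup G) :=
        hcop.mul_dvd_of_dvd_of_dvd (Subgroup.card_dvd_of_le le_sup_left)
          (Subgroup.card_dvd_of_le le_sup_right)
      have hge : Nat.card A ≤ Nat.card (O ⊔ W0 : Subgroup G) := by
        rw [hAcard, hb, ← hW0card]
        exact Nat.le_of_dvd Nat.card_pos hdvd
      exact (Subgroup.eq_of_le_of_card_ge hle hge).ge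
    rw [eq_top_iff, ← hfr]
    apply sup_le le_sup_right
    exact hAle.trans (sup_le le_sup_left (le_normalizer.trans le_sup_right))

end Cfsg.Agent.Lib.Helper18.TL
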