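import Mathlib
import Cfsg.Prelude.Def_Solvable
import Cfsg.Prelude.Def_Local
import Cfsg.Agent.Lib.Helper18.TLDefs

/-!
# S3797 piece SPLIT (helper59): a subgroup `L` of internal 2-length one splits as `L = A S1 Y`
with `A` the odd normal term of the chain, `S1` a Sylow 2-subgroup of `L` (containing every
`L`-invariant 2-subgroup of `L`) and `Y` an odd-order complement to `S1` in `N_L(S1)`.
-/

set_option autoImplicit false

namespace Cfsg.Agent.Lib.Helper18.TL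

open Subgroup
open scoped commutatorElement

universe u

variable {G : Type u} [Group G]

/-- the statement for `L = ⊤` -/
private theorem split_top {Λ : Type u} [Group Λ] [Finite Λ] {A B : Subgroup Λ} [hAn : A.Normal]
    [hBn : B.Normal] (hAB : A ≤ B) (hA : ∀ x ∈ A, ∃ m : ℕ, m.Coprime 2 ∧ x ^ m = 1)
    (hB : ∀ x ∈ B, ∃ k : ℕ, x ^ (2 ^ k) ∈ A)
    (hL : ∀ x : Λ, ∃ m : ℕ, m.Coprime 2 ∧ x ^ m ∈ B) :
    ∃ S1 Y : Subgroup Λ, Odd (Nat.card A) ∧ IsPGroup 2 S1 ∧ Odd (Nat.card Y) ∧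
      Y ≤ normalizer (S1 : Set Λ) ∧ (∀ g : Λ, ∃ a ∈ A, ∃ s ∈ S1, ∃ y ∈ Y, g = a * s * y) ∧
      (∀ Q : Subgroup Λ, IsPGroup 2 Q → Q.Normal → Q ≤ S1) := by
  classical
  haveI : Fact (Nat.Prime 2) := ⟨Nat.prime_two⟩
  -- (1) `A` has odd order
  have hAodd : Odd (Nat.card A) := by
    by_contra hcon
    have h2 : 2 ∣ Nat.card A := even_iff_two_dvd.mp (Nat.not_odd_iff_even.mp hcon)
    obtain ⟨x, hx⟩ := exists_prime_orderOf_dvd_card' (G := A) 2 h2
    obtain ⟨m, hm, hxm⟩ := hA x.1 x.2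
    have h3 : orderOf (x : Λ) = 2 := by rw [Subgroup.orderOf_coe]; exact hx
    have h4 : 2 ∣ m := by rw [← h3]; exact orderOf_dvd_of_pow_eq_one hxm
    have h5 : Odd m := Nat.coprime_two_right.mp hm
    exact (Nat.not_even_iff_odd.mpr h5) (even_iff_two_dvd.mpr h4)
  obtain ⟨S⟩ : Nonempty (Sylow 2 Λ) := inferInstance
  obtain ⟨S1, hS1⟩ : ∃ S1 : Subgroup Λ, S1 = (S : Subgroup Λ) := ⟨_, rfl⟩
  have hS1p : IsPGroup 2 S1 := by rw [hS1]; exact S.isPGroup'
  -- (3) `S1 ≤ B`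
  have hS1B : S1 ≤ B := by
    intro s hs
    obtain ⟨m, hm, hsm⟩ := hL s
    obtain ⟨k, hk⟩ := hS1p ⟨s, hs⟩
    have hk' : s ^ (2 ^ k) = 1 := by
      have := congrArg Subtype.val hk
      simpa using this
    by_cases hk0 : k = 0
    · rw [hk0, pow_zero, pow_one] at hk'
      rw [hk']; exact one_mem B
    · have h1 : 1 < 2 ^ k := Nat.one_lt_pow hk0 (by norm_num)
      obtain ⟨c, -, hc⟩ := Nat.exists_mul_mod_eq_one_of_coprime (Nat.Coprime.pow_right k hm) h1
      have h2 : s ^ (m * c) = s := by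
        rw [pow_eq_pow_mod (m * c) hk', hc, pow_one]
      rw [← h2, pow_mul]
      exact pow_mem hsm c
  -- (4) orders
  obtain ⟨j, hj⟩ : ∃ j : ℕ, Nat.card B = Nat.card A * 2 ^ j := by
    have hq : IsPGroup 2 (↥B ⧸ A.subgroupOf B) := by
      intro q
      induction q using QuotientGroup.induction_on with
      | H x =>
        obtain ⟨k, hk⟩ := hB x.1 x.2
        refine ⟨k, ?_⟩
        rw [← QuotientGroup.mk_pow, QuotientGroup.eq_one_iff, Subgroup.mem_subgroupOf]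
        simpa using hk
    obtain ⟨j, hj⟩ := IsPGroup.iff_card.mp hq
    refine ⟨j, ?_⟩
    rw [← hj, ← Subgroup.index_eq_card, ← (A.subgroupOf B).card_mul_index]
    congr 1
    exact Nat.card_congr (Subgroup.subgroupOfEquivOfLe hAB).toEquiv
  have hScard : Nat.card S1 = 2 ^ (Nat.card Λ).factorization 2 := by
    rw [hS1]; exact Sylow.card_eq_multiplicity S
  have hjdvd : 2 ^ j ∣ Nat.card S1 := by
    rw [hScard]
    apply pow_dvd_pow
    apply (Nat.Prime.pow_dvd_iff_le_factorization Nat.prime_two Nat.card_pos.ne').mp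
    exact (Dvd.intro_left _ hj.symm).trans (Subgroup.card_subgroup_dvd_card B)
  have hcop : (Nat.card A).Coprime (Nat.card S1) := by
    rw [hScard]
    exact Nat.Coprime.pow_right _ (Nat.coprime_two_right.mpr hAodd)
  have hBle : B ≤ A ⊔ S1 := by
    have hle : A ⊔ S1 ≤ B := sup_le hAB hS1B
    have hdvd : Nat.card A * Nat.card S1 ∣ Nat.card (A ⊔ S1 : Subgroup Λ) :=
      hcop.mul_dvd_of_dvd_of_dvd (Subgroup.card_dvd_of_le le_sup_left)
        (Subgroup.card_dvd_of_le le_sup_right)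
    have hge : Nat.card B ≤ Nat.card (A ⊔ S1 : Subgroup Λ) := by
      rw [hj]
      refine le_trans ?_ (Nat.le_of_dvd Nat.card_pos hdvd)
      exact Nat.mul_le_mul_left _ (Nat.le_of_dvd Nat.card_pos hjdvd)
    exact (Subgroup.eq_of_le_of_card_ge hle hge).ge
  -- (5) Frattini
  have hfr : normalizer ((S1 : Subgroup Λ) : Set Λ) ⊔ B = ⊤ := by
    rw [hS1]
    exact Sylow.normalizer_sup_eq_top' S (by rw [← hS1]; exact hS1B)
  have htop : A ⊔ normalizer ((S1 : Subgroup Λ) : Set Λ) = ⊤ := by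
    rw [eq_top_iff, ← hfr]
    apply sup_le le_sup_right
    exact hBle.trans (sup_le le_sup_left (le_normalizer.trans le_sup_right))
  -- (6) Schur–Zassenhaus in `N(S1)`
  obtain ⟨N, hN⟩ : ∃ N : Subgroup Λ, N = normalizer ((S1 : Subgroup Λ) : Set Λ) := ⟨_, rfl⟩
  rw [← hN] at htop
  have hS1N : S1 ≤ N := by rw [hN]; exact le_normalizer
  haveI hnorm : (S1.subgroupOf N).Normal := by
    rw [hN]; exact Subgroup.normal_in_normalizer
  have hcard' : Nat.card (S1.subgroupOf N) = Nat.card S1 :=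
    Nat.card_congr (Subgroup.subgroupOfEquivOfLe hS1N).toEquiv
  have hidx : ((S1.subgroupOf N).index).Coprime 2 := by
    have h1 : S1.relIndex N * N.index = S1.index := Subgroup.relIndex_mul_index hS1N
    have h2 : ¬ 2 ∣ S1.index := by rw [hS1]; exact S.not_dvd_index
    have h3 : ¬ 2 ∣ S1.relIndex N := fun h => h2 (h1 ▸ Dvd.dvd.mul_right h _)
    exact (Nat.coprime_comm.mp ((Nat.Prime.coprime_iff_not_dvd Nat.prime_two).mpr h3))
  obtain ⟨Y', hY'⟩ := Subgroup.exists_right_complement'_of_coprime (N := S1.subgroupOf N)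
    (by rw [hcard', hScard]; exact Nat.Coprime.pow_left _ hidx.symm)
  have hY'card : Nat.card Y' = (S1.subgroupOf N).index := by
    have h1 := hY'.card_mul_card
    have h2 := (S1.subgroupOf N).card_mul_index
    have h3 : Nat.card (S1.subgroupOf N) ≠ 0 := Nat.card_pos.ne'
    exact Nat.eq_of_mul_eq_mul_left (Nat.pos_of_ne_zero h3) (h1.trans h2.symm)
  refine ⟨S1, Y'.map N.subtype, hAodd, hS1p, ?_, ?_, ?_, ?_⟩
  · rw [Subgroup.card_map_of_injective (Subgroup.subtype_injective N), hY'card]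
    exact Nat.coprime_two_right.mp hidx
  · refine (Subgroup.map_subtype_le Y').trans ?_
    rw [hN]
  · intro g
    have hg : g ∈ A ⊔ N := by rw [htop]; trivial
    obtain ⟨a, ha, n, hn, rfl⟩ := Subgroup.mem_sup_of_normal_left.mp hg
    obtain ⟨⟨s, y⟩, hsy, -⟩ := (Subgroup.isComplement'_def.mp hY').existsUnique ⟨n, hn⟩
    have hsy' : (s : N).1 * (y : N).1 = n := by
      have := congrArg Subtype.val hsy
      simpa using this
    refine ⟨a, ha, (s : N).1, Subgroup.mem_subgroupOf.mp s.2, (y : N).1,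
      Subgroup.mem_map.mpr ⟨y, y.2, rfl⟩, ?_⟩
    rw [← hsy', mul_assoc]
  · intro Q hQ hQn
    haveI := hQn
    rw [hS1]
    exact hQ.le_sylow_of_normal S

-- piece SPLIT
theorem pl_split [Finite G] {L : Subgroup G} (h : PL L) :
    ∃ A S1 Y : Subgroup G, A ≤ L ∧ S1 ≤ L ∧ Y ≤ L ∧ L ≤ normalizer (A : Set G) ∧
      Odd (Nat.card A) ∧ IsPGroup 2 S1 ∧ Odd (Nat.card Y) ∧ Y ≤ normalizer (S1 : Set G) ∧
      (∀ g ∈ L, ∃ a ∈ A, ∃ s ∈ S1, ∃ y ∈ Y, g = a * s * y) ∧
      (∀ Q : Subgroup G, Q ≤ L → IsPGroup 2 Q → L ≤ normalizer (Q : Set G) → Q ≤ S1) := by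
  obtain ⟨A, B, hAB, hBL, hLA, hLB, hA, hB, hL⟩ := h
  have hAL : A ≤ L := hAB.trans hBL
  haveI hAn : (A.subgroupOf L).Normal := (Subgroup.normal_subgroupOf_iff_le_normalizer hAL).mpr hLA
  haveI hBn : (B.subgroupOf L).Normal := (Subgroup.normal_subgroupOf_iff_le_normalizer hBL).mpr hLB
  have hAB' : A.subgroupOf L ≤ B.subgroupOf L := fun x hx => hAB hx
  have hA' : ∀ x ∈ A.subgroupOf L, ∃ m : ℕ, m.Coprime 2 ∧ x ^ m = 1 := by
    intro x hx
    obtain ⟨m, hm, hxm⟩ := hA x.1 hx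
    exact ⟨m, hm, Subtype.ext (by simpa using hxm)⟩
  have hB' : ∀ x ∈ B.subgroupOf L, ∃ k : ℕ, x ^ (2 ^ k) ∈ A.subgroupOf L := by
    intro x hx
    obtain ⟨k, hk⟩ := hB x.1 hx
    exact ⟨k, by rw [Subgroup.mem_subgroupOf]; simpa using hk⟩
  have hL' : ∀ x : L, ∃ m : ℕ, m.Coprime 2 ∧ x ^ m ∈ B.subgroupOf L := by
    intro x
    obtain ⟨m, hm, hxm⟩ := hL x.1 x.2
    exact ⟨m, hm, by rw [Subgroup.mem_subgroupOf]; simpa using hxm⟩
  obtain ⟨S1, Y, hAodd, hS1p, hYodd, hYS, hfac, hmax⟩ := split_top hAB' hA' hB' hL'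
  refine ⟨A, S1.map L.subtype, Y.map L.subtype, hAL, Subgroup.map_subtype_le S1,
    Subgroup.map_subtype_le Y, hLA, ?_, hS1p.map L.subtype, ?_, ?_, ?_, ?_⟩
  · rw [← Nat.card_congr (Subgroup.subgroupOfEquivOfLe hAL).toEquiv]; exact hAodd
  · rw [Subgroup.card_map_of_injective (Subgroup.subtype_injective L)]; exact hYodd
  · exact (Subgroup.map_mono hYS).trans (Subgroup.le_normalizer_map L.subtype)
  · intro g hg
    obtain ⟨a, ha, s, hs, y, hy, hgasy⟩ := hfac ⟨g, hg⟩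
    refine ⟨a.1, ha, s.1, Subgroup.mem_map.mpr ⟨s, hs, rfl⟩, y.1,
      Subgroup.mem_map.mpr ⟨y, hy, rfl⟩, ?_⟩
    have := congrArg Subtype.val hgasy
    simpa using this
  · intro Q hQL hQ hLQ
    have hQn : (Q.subgroupOf L).Normal :=
      (Subgroup.normal_subgroupOf_iff_le_normalizer hQL).mpr hLQ
    have hQ' : IsPGroup 2 (Q.subgroupOf L) := hQ.comap_subtype
    have h1 := hmax (Q.subgroupOf L) hQ' hQn
    intro q hq
    exact Subgroup.mem_map.mpr ⟨⟨q, hQL hq⟩, h1 hq, rfl⟩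

end Cfsg.Agent.Lib.Helper18.TL
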