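import Mathlib
import Cfsg.Prelude.Def_GeometricClasses
import Cfsg.Prelude.Def_LieClassical
import Cfsg.Agent.Lib.Helper71.Asch5
import Cfsg.Agent.Lib.Helper82.ASB8UNITS
import Cfsg.Agent.Lib.Helper44.BADDefs
import Cfsg.Agent.Lib.Helper99.F4F3

/-!
# Project BAD (helper44; sub-project of helper49's SUG = S5663), piece STRANS (helper59)

The unitary `3 × 3` matrices over the field with four elements are transitive by conjugation on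
the 24 non-scalar elements of `bS`.  Every non-scalar element `c • (D(d) * Y ^ j)` is conjugate to
`D(ω)` by an explicit unitary matrix `STRANS_W c d j` (inverse `STRANS_WI c d j`); the statement is
decided over the concrete field `F4` and transferred along a ring isomorphism `F4 ≃+* F`.
-/

set_option autoImplicit false
set_option linter.unusedSectionVars false

namespace Cfsg.Agent.Lib.Helper44.BAD

open Matrix Cfsg.Geo Cfsg.Agent.Lib.Helper71.Asch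
open scoped Kronecker
open Cfsg.Agent.Lib.Helper99.U42 (F4)

/-- conjugators to `D(ω)` -/
def STRANS_W : F4 → F4 → ℕ → Matrix (Fin 3) (Fin 3) F4
  | .i, .i, 1 => !![1, 1, 1; 1, F4.w, F4.v; 1, F4.v, F4.w]
  | .i, .i, 2 => !![1, 1, 1; 1, F4.v, F4.w; 1, F4.w, F4.v]
  | .i, .w, 0 => !![1, 0, 0; 0, 1, 0; 0, 0, 1]
  | .i, .w, 1 => !![1, F4.v, 1; 1, 1, F4.v; 1, F4.w, F4.w]
  | .i, .w, 2 => !![1, 1, F4.w; 1, F4.v, F4.v; 1, F4.w, 1]
  | .i, .v, 0 => !![1, 0, 0; 0, 0, 1; 0, 1, 0]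
  | .i, .v, 1 => !![1, F4.w, 1; 1, F4.v, F4.v; 1, 1, F4.w]
  | .i, .v, 2 => !![1, 1, F4.v; 1, F4.v, 1; 1, F4.w, F4.w]
  | .w, .i, 1 => !![1, F4.v, F4.w; 1, 1, 1; 1, F4.w, F4.v]
  | .w, .i, 2 => !![1, F4.w, F4.v; 1, 1, 1; 1, F4.v, F4.w]
  | .w, .w, 0 => !![0, 0, 1; 1, 0, 0; 0, 1, 0]
  | .w, .w, 1 => !![1, F4.w, F4.w; 1, F4.v, 1; 1, 1, F4.v]
  | .w, .w, 2 => !![1, F4.w, 1; 1, 1, F4.w; 1, F4.v, F4.v]
  | .w, .v, 0 => !![0, 1, 0; 1, 0, 0; 0, 0, 1]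
  | .w, .v, 1 => !![1, 1, F4.w; 1, F4.w, 1; 1, F4.v, F4.v]
  | .w, .v, 2 => !![1, F4.w, F4.w; 1, 1, F4.v; 1, F4.v, 1]
  | .v, .i, 1 => !![1, F4.w, F4.v; 1, F4.v, F4.w; 1, 1, 1]
  | .v, .i, 2 => !![1, F4.v, F4.w; 1, F4.w, F4.v; 1, 1, 1]
  | .v, .w, 0 => !![0, 1, 0; 0, 0, 1; 1, 0, 0]
  | .v, .w, 1 => !![1, 1, F4.v; 1, F4.w, F4.w; 1, F4.v, 1]
  | .v, .w, 2 => !![1, F4.v, F4.v; 1, F4.w, 1; 1, 1, F4.w]
  | .v, .v, 0 => !![0, 0, 1; 0, 1, 0; 1, 0, 0]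
  | .v, .v, 1 => !![1, F4.v, F4.v; 1, 1, F4.w; 1, F4.w, 1]
  | .v, .v, 2 => !![1, F4.v, 1; 1, F4.w, F4.w; 1, 1, F4.v]
  | _, _, _ => 1

/-- their inverses -/
def STRANS_WI : F4 → F4 → ℕ → Matrix (Fin 3) (Fin 3) F4
  | .i, .i, 1 => !![1, 1, 1; 1, F4.v, F4.w; 1, F4.w, F4.v]
  | .i, .i, 2 => !![1, 1, 1; 1, F4.w, F4.v; 1, F4.v, F4.w]
  | .i, .w, 0 => !![1, 0, 0; 0, 1, 0; 0, 0, 1]
  | .i, .w, 1 => !![1, 1, 1; F4.w, 1, F4.v; 1, F4.w, F4.v]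
  | .i, .w, 2 => !![1, 1, 1; 1, F4.w, F4.v; F4.v, F4.w, 1]
  | .i, .v, 0 => !![1, 0, 0; 0, 0, 1; 0, 1, 0]
  | .i, .v, 1 => !![1, 1, 1; F4.v, F4.w, 1; 1, F4.w, F4.v]
  | .i, .v, 2 => !![1, 1, 1; 1, F4.w, F4.v; F4.w, 1, F4.v]
  | .w, .i, 1 => !![1, 1, 1; F4.w, 1, F4.v; F4.v, 1, F4.w]
  | .w, .i, 2 => !![1, 1, 1; F4.v, 1, F4.w; F4.w, 1, F4.v]
  | .w, .w, 0 => !![0, 1, 0; 0, 0, 1; 1, 0, 0]
  | .w, .w, 1 => !![1, 1, 1; F4.v, F4.w, 1; F4.v, 1, F4.w]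
  | .w, .w, 2 => !![1, 1, 1; F4.v, 1, F4.w; 1, F4.v, F4.w]
  | .w, .v, 0 => !![0, 1, 0; 1, 0, 0; 0, 0, 1]
  | .w, .v, 1 => !![1, 1, 1; 1, F4.v, F4.w; F4.v, 1, F4.w]
  | .w, .v, 2 => !![1, 1, 1; F4.v, 1, F4.w; F4.v, F4.w, 1]
  | .v, .i, 1 => !![1, 1, 1; F4.v, F4.w, 1; F4.w, F4.v, 1]
  | .v, .i, 2 => !![1, 1, 1; F4.w, F4.v, 1; F4.v, F4.w, 1]
  | .v, .w, 0 => !![0, 0, 1; 1, 0, 0; 0, 1, 0]
  | .v, .w, 1 => !![1, 1, 1; 1, F4.v, F4.w; F4.w, F4.v, 1]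
  | .v, .w, 2 => !![1, 1, 1; F4.w, F4.v, 1; F4.w, 1, F4.v]
  | .v, .v, 0 => !![0, 0, 1; 0, 1, 0; 1, 0, 0]
  | .v, .v, 1 => !![1, 1, 1; F4.w, 1, F4.v; F4.w, F4.v, 1]
  | .v, .v, 2 => !![1, 1, 1; F4.w, F4.v, 1; 1, F4.v, F4.w]
  | _, _, _ => 1

/-- the elements of `bS` over `F4` -/
def STRANS_M (c d : F4) (j : ℕ) : Matrix (Fin 3) (Fin 3) F4 :=
  c • (Matrix.diagonal ![1, d, d ^ 2] * bY F4 ^ j)

set_option maxRecDepth 100000 in
theorem STRANS_dec : ∀ (c d : F4) (j : Fin 3) (c' d' : F4) (j' : Fin 3),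
    c ≠ 0 → d ≠ 0 → c' ≠ 0 → d' ≠ 0 →
    (¬ ∃ a : F4, STRANS_M c d j.val = a • (1 : Matrix (Fin 3) (Fin 3) F4)) →
    (¬ ∃ a : F4, STRANS_M c' d' j'.val = a • (1 : Matrix (Fin 3) (Fin 3) F4)) →
    (STRANS_WI c' d' j'.val * STRANS_W c d j.val)ᵀ *
        (STRANS_WI c' d' j'.val * STRANS_W c d j.val).map (fun x : F4 => x ^ 2) = 1 ∧
      (STRANS_WI c' d' j'.val * STRANS_W c d j.val) * STRANS_M c d j.val =
        STRANS_M c' d' j'.val * (STRANS_WI c' d' j'.val * STRANS_W c d j.val) := by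
  decide +kernel

theorem STRANS_bY_cube : bY F4 ^ 3 = 1 := by
  decide +kernel

variable {n : ℕ} {F : Type*} [Field F] [Fintype F] {q : ℕ}

theorem STRANS_bY_map (φ : F4 →+* F) : (bY F4).map φ = bY F := by
  ext i j
  fin_cases i <;> fin_cases j <;> simp [bY]

theorem STRANS_M_map (φ : F4 →+* F) (c d : F4) (k : ℕ) :
    (STRANS_M c d k).map φ = φ c • (Matrix.diagonal ![1, φ d, φ d ^ 2] * bY F ^ k) := by
  unfold STRANS_M
  rw [Matrix.map_smul' φ c _ (map_mul φ), Matrix.map_mul]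
  have h1 : (bY F4 ^ k).map φ = bY F ^ k := by
    have h := map_pow φ.mapMatrix (bY F4) k
    rw [RingHom.mapMatrix_apply, RingHom.mapMatrix_apply, STRANS_bY_map] at h
    exact h
  have h2 : (Matrix.diagonal ![1, d, d ^ 2]).map φ = Matrix.diagonal ![1, φ d, φ d ^ 2] := by
    rw [Matrix.diagonal_map (map_zero φ)]
    congr 1
    funext i
    fin_cases i <;> simp
  rw [h1, h2]

/-- STRANS: the unitary matrices are transitive on the non-scalar elements of `bS`. -/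
theorem STRANS (hF : Fintype.card F = 4) : STRANSp F := by
  classical
  obtain ⟨eq, -⟩ : ∃ eq : F4 ≃+* F, True :=
    ⟨FiniteField.ringEquivOfCardEq (by rw [hF]; rfl), trivial⟩
  obtain ⟨φ, hφ⟩ : ∃ φ : F4 →+* F, φ = eq.toRingHom := ⟨_, rfl⟩
  have hsurj : Function.Surjective φ := by rw [hφ]; exact eq.surjective
  have key : ∀ M ∈ bS F, ∃ (c d : F4) (j : ℕ), j < 3 ∧ c ≠ 0 ∧ d ≠ 0 ∧
      M = (STRANS_M c d j).map φ := by
    rintro M ⟨c, d, k, hc, hd, rfl⟩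
    obtain ⟨c0, rfl⟩ := hsurj c
    obtain ⟨d0, rfl⟩ := hsurj d
    refine ⟨c0, d0, k % 3, Nat.mod_lt _ (by norm_num), ?_, ?_, ?_⟩
    · rintro rfl; exact hc (map_zero φ)
    · rintro rfl; exact hd (map_zero φ)
    · rw [STRANS_M_map, ← pow_eq_pow_mod k]
      rw [← STRANS_bY_map φ]
      have h := map_pow φ.mapMatrix (bY F4) 3
      rw [RingHom.mapMatrix_apply, RingHom.mapMatrix_apply, STRANS_bY_cube] at h
      rw [← h]
      exact Matrix.map_one φ (map_zero φ) (map_one φ)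
  intro M hM M' hM' hns hns'
  obtain ⟨c, d, j, hj, hc, hd, rfl⟩ := key M hM
  obtain ⟨c', d', j', hj', hc', hd', rfl⟩ := key M' hM'
  have hn1 : ¬ ∃ a : F4, STRANS_M c d j = a • (1 : Matrix (Fin 3) (Fin 3) F4) := by
    rintro ⟨a, ha⟩
    apply hns
    refine ⟨φ a, ?_⟩
    rw [ha, Matrix.map_smul' φ a _ (map_mul φ), Matrix.map_one φ (map_zero φ) (map_one φ)]
  have hn2 : ¬ ∃ a : F4, STRANS_M c' d' j' = a • (1 : Matrix (Fin 3) (Fin 3) F4) := by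
    rintro ⟨a, ha⟩
    apply hns'
    refine ⟨φ a, ?_⟩
    rw [ha, Matrix.map_smul' φ a _ (map_mul φ), Matrix.map_one φ (map_zero φ) (map_one φ)]
  obtain ⟨hu, hcm⟩ := STRANS_dec c d ⟨j, hj⟩ c' d' ⟨j', hj'⟩ hc hd hc' hd' hn1 hn2
  refine ⟨(STRANS_WI c' d' j' * STRANS_W c d j).map φ, ?_, ?_⟩
  · show ((STRANS_WI c' d' j' * STRANS_W c d j).map φ)ᵀ *
      ((STRANS_WI c' d' j' * STRANS_W c d j).map φ).map (fun x : F => x ^ 2) = 1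
    have h := congrArg (fun X : Matrix (Fin 3) (Fin 3) F4 => X.map φ) hu
    have hcomm : ((STRANS_WI c' d' j' * STRANS_W c d j).map (fun x : F4 => x ^ 2)).map φ =
        ((STRANS_WI c' d' j' * STRANS_W c d j).map φ).map (fun x : F => x ^ 2) := by
      rw [Matrix.map_map, Matrix.map_map]
      congr 1
      funext x
      simp
    have h1 : ((STRANS_WI c' d' j' * STRANS_W c d j)ᵀ *
        (STRANS_WI c' d' j' * STRANS_W c d j).map (fun x : F4 => x ^ 2)).map φ =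
        (1 : Matrix (Fin 3) (Fin 3) F) := by
      rw [hu]
      exact Matrix.map_one φ (map_zero φ) (map_one φ)
    rw [Matrix.map_mul, Matrix.transpose_map, hcomm] at h1
    exact h1
  · have h := congrArg (fun X : Matrix (Fin 3) (Fin 3) F4 => X.map φ) hcm
    simp only [Matrix.map_mul] at h ⊢
    exact h

end Cfsg.Agent.Lib.Helper44.BAD
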