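import Mathlib
import Cfsg.Prelude.Def_GeometricClasses
import Cfsg.Prelude.Def_LieClassical
import Cfsg.Agent.Lib.Helper71.SUP0
import Cfsg.Agent.Lib.Helper59.U52Defs

/-!
# Project U52 (helper59), S5796: piece TRSQ

The trace `η` of an element of order `11` of `GL_5(4)` satisfies `η² + η + 1 = 0`.
-/

set_option autoImplicit false

namespace Cfsg.Agent.Lib.Helper59.U52

open Matrix Cfsg.Geo

-- piece TRSQ
theorem trace_eta_h59 {F : Type*} [Field F] [Fintype F] (hF : Fintype.card F = 4)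
    (y : Matrix (Fin 5) (Fin 5) F) (h11 : y ^ 11 = 1)
    (hsum : ∑ i ∈ Finset.range 11, y ^ i = 0) :
    y.trace ^ 2 + y.trace + 1 = 0 := by
  have h2 : (2 : F) = 0 := by
    have h4 : ((Fintype.card F : ℕ) : F) = 0 := FiniteField.cast_card_eq_zero F
    rw [hF] at h4
    have h22 : (2 : F) * 2 = 0 := by
      have e : ((4 : ℕ) : F) = 2 * 2 := by norm_num
      rw [← e]
      exact h4
    exact mul_self_eq_zero.mp h22
  have tr4 : ∀ M : Matrix (Fin 5) (Fin 5) F, (M ^ 4).trace = M.trace := by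
    intro M
    have h := FiniteField.trace_pow_card M
    rw [hF] at h
    rw [h]
    have h' := FiniteField.pow_card M.trace
    rwa [hF] at h'
  have tr2 : ∀ M : Matrix (Fin 5) (Fin 5) F, (M ^ 2).trace = M.trace ^ 2 := by
    intro M
    simp only [pow_two, Matrix.trace, Matrix.diag, Matrix.mul_apply, Fin.sum_univ_five]
    linear_combination ((M 0 1 * M 1 0 - M 0 0 * M 1 1) + (M 0 2 * M 2 0 - M 0 0 * M 2 2) + (M 0 3 * M 3 0 - M 0 0 * M 3 3) + (M 0 4 * M 4 0 - M 0 0 * M 4 4) + (M 1 2 * M 2 1 - M 1 1 * M 2 2) + (M 1 3 * M 3 1 - M 1 1 * M 3 3) + (M 1 4 * M 4 1 - M 1 1 * M 4 4) + (M 2 3 * M 3 2 - M 2 2 * M 3 3) + (M 2 4 * M 4 2 - M 2 2 * M 4 4) + (M 3 4 * M 4 3 - M 3 3 * M 4 4)) * h2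
  have red : ∀ k : ℕ, y ^ (11 + k) = y ^ k := fun k => by rw [pow_add, h11, one_mul]
  have red2 : ∀ k : ℕ, y ^ (22 + k) = y ^ k := fun k => by
    rw [show 22 + k = 11 + (11 + k) by ring, red, red]
  have red3 : ∀ k : ℕ, y ^ (33 + k) = y ^ k := fun k => by
    rw [show 33 + k = 11 + (22 + k) by ring, red, red2]
  have e1 : (y ^ 1).trace = y.trace := by rw [pow_one]
  have e4 : (y ^ 4).trace = y.trace := tr4 y
  have e5 : (y ^ 5).trace = y.trace := by
    have e : y ^ 5 = (y ^ 4) ^ 4 := by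
      rw [← pow_mul]
      exact (red 5).symm
    rw [e, tr4, e4]
  have e9 : (y ^ 9).trace = y.trace := by
    have e : y ^ 9 = (y ^ 5) ^ 4 := by
      rw [← pow_mul]
      exact (red 9).symm
    rw [e, tr4, e5]
  have e3 : (y ^ 3).trace = y.trace := by
    have e : y ^ 3 = (y ^ 9) ^ 4 := by
      rw [← pow_mul]
      exact (red3 3).symm
    rw [e, tr4, e9]
  have f2 : (y ^ 2).trace = y.trace ^ 2 := tr2 y
  have f8 : (y ^ 8).trace = y.trace ^ 2 := by
    have e : y ^ 8 = (y ^ 2) ^ 4 := by rw [← pow_mul]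
    rw [e, tr4, f2]
  have f10 : (y ^ 10).trace = y.trace ^ 2 := by
    have e : y ^ 10 = (y ^ 8) ^ 4 := by
      rw [← pow_mul]
      exact (red2 10).symm
    rw [e, tr4, f8]
  have f7 : (y ^ 7).trace = y.trace ^ 2 := by
    have e : y ^ 7 = (y ^ 10) ^ 4 := by
      rw [← pow_mul]
      exact (red3 7).symm
    rw [e, tr4, f10]
  have f6 : (y ^ 6).trace = y.trace ^ 2 := by
    have e : y ^ 6 = (y ^ 7) ^ 4 := by
      rw [← pow_mul]
      exact (red2 6).symm
    rw [e, tr4, f7]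
  have h0 : (y ^ 0).trace = 1 := by
    rw [pow_zero, Matrix.trace_one, Fintype.card_fin]
    have e : ((5 : ℕ) : F) = 2 * 2 + 1 := by norm_num
    rw [e, h2]
    ring
  have hs := congrArg Matrix.trace hsum
  simp only [Finset.sum_range_succ, Finset.sum_range_zero, Matrix.trace_add, Matrix.trace_zero,
    zero_add] at hs
  rw [h0, e1, f2, e3, e4, e5, f6, f7, f8, e9, f10] at hs
  linear_combination hs - (2 * y.trace ^ 2 + 2 * y.trace) * h2

end Cfsg.Agent.Lib.Helper59.U52
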