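import Mathlib
import Cfsg.Prelude.Def_Transfer

/-!
# Foundation for S3084: twisted translation operators on `U → ZMod 3`

`U` is a vector space over `ZMod 2`, `β` a bilinear form on `U`.  `Lop β u` and `Rop β u` are the
left and right multiplications by the basis element `b_u` in the twisted group algebra
`F_3^β[U]` (`b_u * b_v = (-1)^{β(u,v)} b_{u+v}`), realised on functions `U → ZMod 3`.
`Rgrp β ρ` is the group of pairs `(T, k)` with `T` an invertible operator commuting with all `Rop`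
(i.e. a left multiplication) and normalising `{± Lop u}` compatibly with `ρ k`.
-/

set_option autoImplicit false

namespace Cfsg.Agent.Lib.Helper59.CL

/-- the sign character `ZMod 2 → ZMod 3`. -/
def sg (a : ZMod 2) : ZMod 3 := if a = 0 then 1 else -1

theorem sg_zero : sg 0 = 1 := by decide
theorem sg_one : sg 1 = -1 := by decide
theorem sg_add (a b : ZMod 2) : sg (a + b) = sg a * sg b := by revert a b; decide
theorem sg_mul_self (a : ZMod 2) : sg a * sg a = 1 := by revert a; decide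
theorem sg_ne_zero (a : ZMod 2) : sg a ≠ 0 := by revert a; decide
theorem sg_eq_one_iff (a : ZMod 2) : sg a = 1 ↔ a = 0 := by revert a; decide
theorem sg_pm (a : ZMod 2) : sg a = 1 ∨ sg a = -1 := by revert a; decide
theorem pm_of_ne_zero (ε : ZMod 3) (h : ε ≠ 0) : ε = 1 ∨ ε = -1 := by revert ε; decide
theorem pm_mul_self (ε : ZMod 3) (h : ε = 1 ∨ ε = -1) : ε * ε = 1 := by
  rcases h with rfl | rfl <;> decide
theorem pm_mul (ε δ : ZMod 3) (h : ε = 1 ∨ ε = -1) (h' : δ = 1 ∨ δ = -1) :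
    ε * δ = 1 ∨ ε * δ = -1 := by
  rcases h with rfl | rfl <;> rcases h' with rfl | rfl <;> decide
theorem zmod2_add_self (a : ZMod 2) : a + a = 0 := by revert a; decide

/-- endomorphisms of the function space `U → ZMod 3`. -/
abbrev End3 (U : Type*) := Module.End (ZMod 3) (U → ZMod 3)

/-- `rw [neg_smul]` and `simp` fail on `End3 U` (the `Ring` instance path on `ZMod 3` is not found
by unification); use these restatements, term-mode `neg_smul c T`, or the `module` tactic. -/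
theorem neg_smul_End {U : Type*} (c : ZMod 3) (T : End3 U) : (-c) • T = -(c • T) := neg_smul c T

theorem neg_one_smul_End {U : Type*} (T : End3 U) : (-1 : ZMod 3) • T = -T := by
  rw [neg_smul_End, one_smul]

theorem sub_smul_End {U : Type*} (c d : ZMod 3) (T : End3 U) : (c - d) • T = c • T - d • T :=
  sub_smul c d T

variable {U : Type*} [AddCommGroup U] [Module (ZMod 2) U]

/-- left multiplication by `b_u`: `(Lop β u f) v = (-1)^{β(u, v+u)} f (v+u)`. -/
def Lop (β : U →ₗ[ZMod 2] U →ₗ[ZMod 2] ZMod 2) (u : U) : End3 U where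
  toFun f := fun v => sg (β u (v + u)) * f (v + u)
  map_add' f g := by funext v; simp [mul_add]
  map_smul' c f := by funext v; simp; ring

/-- right multiplication by `b_u`: `(Rop β u f) v = (-1)^{β(v+u, u)} f (v+u)`. -/
def Rop (β : U →ₗ[ZMod 2] U →ₗ[ZMod 2] ZMod 2) (u : U) : End3 U where
  toFun f := fun v => sg (β (v + u) u) * f (v + u)
  map_add' f g := by funext v; simp [mul_add]
  map_smul' c f := by funext v; simp; ring

theorem Lop_apply (β : U →ₗ[ZMod 2] U →ₗ[ZMod 2] ZMod 2) (u : U) (f : U → ZMod 3) (v : U) :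
    Lop β u f v = sg (β u (v + u)) * f (v + u) := rfl

theorem Rop_apply (β : U →ₗ[ZMod 2] U →ₗ[ZMod 2] ZMod 2) (u : U) (f : U → ZMod 3) (v : U) :
    Rop β u f v = sg (β (v + u) u) * f (v + u) := rfl

theorem add_self_U (u : U) : u + u = 0 := ZModModule.add_self u

theorem add_add_cancel_U (v u : U) : v + u + u = v := by
  rw [add_assoc, add_self_U, add_zero]

theorem Lop_zero (β : U →ₗ[ZMod 2] U →ₗ[ZMod 2] ZMod 2) : Lop β 0 = 1 := by
  apply LinearMap.ext; intro f; funext v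
  simp [Lop_apply, sg_zero]

theorem Rop_zero (β : U →ₗ[ZMod 2] U →ₗ[ZMod 2] ZMod 2) : Rop β 0 = 1 := by
  apply LinearMap.ext; intro f; funext v
  simp [Rop_apply, sg_zero]

theorem Lop_mul (β : U →ₗ[ZMod 2] U →ₗ[ZMod 2] ZMod 2) (u v : U) :
    Lop β u * Lop β v = sg (β u v) • Lop β (u + v) := by
  apply LinearMap.ext; intro f; funext x
  simp only [Module.End.mul_apply, Lop_apply, LinearMap.smul_apply, Pi.smul_apply, smul_eq_mul]
  have e1 : x + u + v = x + (u + v) := add_assoc _ _ _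
  rw [e1, ← mul_assoc, ← mul_assoc, ← sg_add, ← sg_add]
  congr 2
  simp only [map_add, LinearMap.add_apply]
  have two0 : (2 : ZMod 2) = 0 := rfl
  linear_combination (-(β u v)) * two0

theorem Rop_mul (β : U →ₗ[ZMod 2] U →ₗ[ZMod 2] ZMod 2) (u v : U) :
    Rop β u * Rop β v = sg (β v u) • Rop β (v + u) := by
  apply LinearMap.ext; intro f; funext x
  simp only [Module.End.mul_apply, Rop_apply, LinearMap.smul_apply, Pi.smul_apply, smul_eq_mul]
  have e1 : x + u + v = x + (v + u) := by rw [add_assoc, add_comm u v]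
  rw [e1, ← mul_assoc, ← mul_assoc, ← sg_add, ← sg_add]
  congr 2
  simp only [map_add, LinearMap.add_apply]
  have two0 : (2 : ZMod 2) = 0 := rfl
  linear_combination (-(β v u)) * two0

theorem Lop_Rop_comm (β : U →ₗ[ZMod 2] U →ₗ[ZMod 2] ZMod 2) (u v : U) :
    Lop β u * Rop β v = Rop β v * Lop β u := by
  apply LinearMap.ext; intro f; funext x
  simp only [Module.End.mul_apply, Lop_apply, Rop_apply]
  have e1 : x + v + u = x + u + v := by rw [add_assoc, add_comm v u, ← add_assoc]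
  rw [e1, ← mul_assoc, ← mul_assoc, ← sg_add, ← sg_add]
  congr 2
  simp only [map_add, LinearMap.add_apply]
  ring

theorem Lop_single [DecidableEq U] (β : U →ₗ[ZMod 2] U →ₗ[ZMod 2] ZMod 2) (u w : U) :
    Lop β u (Pi.single w 1) = sg (β u w) • (Pi.single (u + w) 1 : U → ZMod 3) := by
  funext v
  by_cases h : v = u + w
  · subst h
    have e : u + w + u = w := by rw [add_comm u w, add_add_cancel_U]
    simp [Lop_apply, e]
  · have e : v + u ≠ w := fun h' => h (by rw [← h', add_comm u, add_add_cancel_U])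
    simp [Lop_apply, Pi.single_apply, h, e]

theorem Rop_single [DecidableEq U] (β : U →ₗ[ZMod 2] U →ₗ[ZMod 2] ZMod 2) (u w : U) :
    Rop β u (Pi.single w 1) = sg (β w u) • (Pi.single (w + u) 1 : U → ZMod 3) := by
  funext v
  by_cases h : v = w + u
  · subst h
    have e : w + u + u = w := add_add_cancel_U w u
    simp [Rop_apply, e]
  · have e : v + u ≠ w := fun h' => h (by rw [← h', add_add_cancel_U])
    simp [Rop_apply, Pi.single_apply, h, e]

/-- `Lop β u` as a unit; its inverse is `sg (β u u) • Lop β u`. -/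
def LU (β : U →ₗ[ZMod 2] U →ₗ[ZMod 2] ZMod 2) (u : U) : (End3 U)ˣ where
  val := Lop β u
  inv := sg (β u u) • Lop β u
  val_inv := by
    rw [mul_smul_comm, Lop_mul, add_self_U, Lop_zero, smul_smul, sg_mul_self, one_smul]
  inv_val := by
    rw [smul_mul_assoc, Lop_mul, add_self_U, Lop_zero, smul_smul, sg_mul_self, one_smul]

theorem LU_val (β : U →ₗ[ZMod 2] U →ₗ[ZMod 2] ZMod 2) (u : U) :
    ((LU β u : (End3 U)ˣ) : End3 U) = Lop β u := rfl

theorem LU_inv_val (β : U →ₗ[ZMod 2] U →ₗ[ZMod 2] ZMod 2) (u : U) :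
    (((LU β u)⁻¹ : (End3 U)ˣ) : End3 U) = sg (β u u) • Lop β u := rfl

variable {K : Type*} [Group K]

/-- The group of pairs `(T, k)`: `T` an invertible operator commuting with all right
multiplications and with `T * L_u = ± L_{ρ(k) u} * T` for all `u`. -/
def Rgrp (β : U →ₗ[ZMod 2] U →ₗ[ZMod 2] ZMod 2) (ρ : Representation (ZMod 2) K U) :
    Subgroup ((End3 U)ˣ × K) where
  carrier := {x | (∀ v, (x.1 : End3 U) * Rop β v = Rop β v * (x.1 : End3 U)) ∧
    ∀ u, ∃ ε : ZMod 3, (ε = 1 ∨ ε = -1) ∧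
      (x.1 : End3 U) * Lop β u = ε • (Lop β (ρ x.2 u) * (x.1 : End3 U))}
  mul_mem' := by
    rintro x y ⟨hx1, hx2⟩ ⟨hy1, hy2⟩
    refine ⟨fun v => ?_, fun u => ?_⟩
    · show ((x.1 * y.1 : (End3 U)ˣ) : End3 U) * Rop β v = Rop β v * ((x.1 * y.1 : (End3 U)ˣ) : End3 U)
      rw [Units.val_mul, mul_assoc, hy1 v, ← mul_assoc, hx1 v, mul_assoc]
    · obtain ⟨ε₁, h1, e1⟩ := hy2 u
      obtain ⟨ε₂, h2, e2⟩ := hx2 (ρ y.2 u)
      refine ⟨ε₁ * ε₂, pm_mul _ _ h1 h2, ?_⟩
      show ((x.1 * y.1 : (End3 U)ˣ) : End3 U) * Lop β u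
        = (ε₁ * ε₂) • (Lop β (ρ (x.2 * y.2) u) * ((x.1 * y.1 : (End3 U)ˣ) : End3 U))
      rw [Units.val_mul, mul_assoc, e1, mul_smul_comm, ← mul_assoc, e2, smul_mul_assoc, smul_smul,
        map_mul, Module.End.mul_apply, mul_assoc]
  one_mem' := by
    refine ⟨fun v => ?_, fun u => ⟨1, Or.inl rfl, ?_⟩⟩
    · show ((1 : (End3 U)ˣ) : End3 U) * Rop β v = Rop β v * ((1 : (End3 U)ˣ) : End3 U)
      rw [Units.val_one, one_mul, mul_one]
    · show ((1 : (End3 U)ˣ) : End3 U) * Lop β u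
        = (1 : ZMod 3) • (Lop β (ρ (1 : K) u) * ((1 : (End3 U)ˣ) : End3 U))
      rw [Units.val_one, one_mul, mul_one, one_smul, map_one, Module.End.one_apply]
  inv_mem' := by
    rintro x ⟨hx1, hx2⟩
    refine ⟨fun v => ?_, fun u => ?_⟩
    · show ((x.1⁻¹ : (End3 U)ˣ) : End3 U) * Rop β v = Rop β v * ((x.1⁻¹ : (End3 U)ˣ) : End3 U)
      exact (Commute.units_inv_left (show Commute (x.1 : End3 U) (Rop β v) from hx1 v)).eq
    · obtain ⟨ε, h1, e1⟩ := hx2 (ρ x.2⁻¹ u)
      have e2 : ρ x.2 (ρ x.2⁻¹ u) = u := by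
        rw [← Module.End.mul_apply, ← map_mul, mul_inv_cancel, map_one, Module.End.one_apply]
      rw [e2] at e1
      refine ⟨ε, h1, ?_⟩
      show ((x.1⁻¹ : (End3 U)ˣ) : End3 U) * Lop β u
        = ε • (Lop β (ρ x.2⁻¹ u) * ((x.1⁻¹ : (End3 U)ˣ) : End3 U))
      have e3 : Lop β (ρ x.2⁻¹ u) * ((x.1⁻¹ : (End3 U)ˣ) : End3 U)
          = ε • (((x.1⁻¹ : (End3 U)ˣ) : End3 U) * Lop β u) := by
        have : ((x.1⁻¹ : (End3 U)ˣ) : End3 U) * ((x.1 : End3 U) * Lop β (ρ x.2⁻¹ u))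
            * ((x.1⁻¹ : (End3 U)ˣ) : End3 U)
            = ((x.1⁻¹ : (End3 U)ˣ) : End3 U) * (ε • (Lop β u * (x.1 : End3 U)))
            * ((x.1⁻¹ : (End3 U)ˣ) : End3 U) := by rw [e1]
        rw [← mul_assoc, Units.inv_mul, one_mul, mul_smul_comm, smul_mul_assoc, mul_assoc,
          mul_assoc, Units.mul_inv, mul_one] at this
        exact this
      rw [e3, smul_smul, pm_mul_self ε h1, one_smul]

theorem mem_Rgrp (β : U →ₗ[ZMod 2] U →ₗ[ZMod 2] ZMod 2) (ρ : Representation (ZMod 2) K U)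
    (x : (End3 U)ˣ × K) :
    x ∈ Rgrp β ρ ↔ (∀ v, (x.1 : End3 U) * Rop β v = Rop β v * (x.1 : End3 U)) ∧
      ∀ u, ∃ ε : ZMod 3, (ε = 1 ∨ ε = -1) ∧
        (x.1 : End3 U) * Lop β u = ε • (Lop β (ρ x.2 u) * (x.1 : End3 U)) := Iff.rfl

/-- projection of `Rgrp` onto `K`. -/
def piHom (β : U →ₗ[ZMod 2] U →ₗ[ZMod 2] ZMod 2) (ρ : Representation (ZMod 2) K U) :
    ↥(Rgrp β ρ) →* K := (MonoidHom.snd (End3 U)ˣ K).comp (Rgrp β ρ).subtype

theorem piHom_apply (β : U →ₗ[ZMod 2] U →ₗ[ZMod 2] ZMod 2) (ρ : Representation (ZMod 2) K U)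
    (x : ↥(Rgrp β ρ)) : piHom β ρ x = (x : (End3 U)ˣ × K).2 := rfl

end Cfsg.Agent.Lib.Helper59.CL
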