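import Cfsg.Agent.Lib.Helper59.CL0

/-!
# S3084 foundation, part 2: statements used as interfaces, the kernel of `piHom`, the map `chi`
-/

set_option autoImplicit false

namespace Cfsg.Agent.Lib.Helper59.CL

variable {U : Type*} [AddCommGroup U] [Module (ZMod 2) U]

/-- nondegeneracy of the polar form `β u w + β w u`. -/
def Nondeg (β : U →ₗ[ZMod 2] U →ₗ[ZMod 2] ZMod 2) : Prop :=
  ∀ w : U, (∀ u, β u w + β w u = 0) → w = 0

/-- an operator commuting with all `Lop` and all `Rop` is a scalar. -/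
def CentStmt (β : U →ₗ[ZMod 2] U →ₗ[ZMod 2] ZMod 2) : Prop :=
  ∀ T : End3 U, (∀ u, T * Lop β u = Lop β u * T) → (∀ v, T * Rop β v = Rop β v * T) →
    ∃ c : ZMod 3, T = c • (1 : End3 U)

/-- a nonzero subspace invariant under all `Lop` and `Rop` is everything. -/
def SimpleStmt (β : U →ₗ[ZMod 2] U →ₗ[ZMod 2] ZMod 2) : Prop :=
  ∀ J : Submodule (ZMod 3) (U → ZMod 3), (∀ u, ∀ f ∈ J, Lop β u f ∈ J) →
    (∀ u, ∀ f ∈ J, Rop β u f ∈ J) → J ≠ ⊥ → J = ⊤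

/-- a unit commuting with all `Rop` and commuting up to sign with all `Lop` is `± Lop w`. -/
def KerStmt (β : U →ₗ[ZMod 2] U →ₗ[ZMod 2] ZMod 2) : Prop :=
  ∀ T : (End3 U)ˣ, (∀ v, (T : End3 U) * Rop β v = Rop β v * (T : End3 U)) →
    (∀ u, ∃ ε : ZMod 3, (ε = 1 ∨ ε = -1) ∧
      (T : End3 U) * Lop β u = ε • (Lop β u * (T : End3 U))) →
    ∃ (w : U) (ε : ZMod 3), (ε = 1 ∨ ε = -1) ∧ (T : End3 U) = ε • Lop β w

theorem Lop_comm_sign (β : U →ₗ[ZMod 2] U →ₗ[ZMod 2] ZMod 2) (u v : U) :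
    Lop β u * Lop β v = sg (β u v + β v u) • (Lop β v * Lop β u) := by
  rw [Lop_mul, Lop_mul, smul_smul, sg_add, mul_assoc, sg_mul_self, mul_one, add_comm v u]

theorem Lop_sq (β : U →ₗ[ZMod 2] U →ₗ[ZMod 2] ZMod 2) (u : U) :
    Lop β u * Lop β u = sg (β u u) • (1 : End3 U) := by
  rw [Lop_mul, add_self_U, Lop_zero]

theorem smul_one_eq_one_iff (c : ZMod 3) : c • (1 : End3 U) = 1 ↔ c = 1 := by
  constructor
  · intro h
    have h1 := congrArg (fun T : End3 U => T (fun _ => (1 : ZMod 3)) (0 : U)) h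
    simpa using h1
  · rintro rfl; exact one_smul _ _

theorem Lop_inj (β : U →ₗ[ZMod 2] U →ₗ[ZMod 2] ZMod 2) (u u' : U) (ε ε' : ZMod 3)
    (h : ε = 1 ∨ ε = -1) (h' : ε' = 1 ∨ ε' = -1) (e : ε • Lop β u = ε' • Lop β u') :
    u = u' ∧ ε = ε' := by
  classical
  have h1 := congrArg (fun T : End3 U => T (Pi.single (0 : U) (1 : ZMod 3)) u) e
  simp only [LinearMap.smul_apply, Pi.smul_apply, Lop_single, map_zero, sg_zero, one_smul,
    add_zero, Pi.single_eq_same, smul_eq_mul, mul_one] at h1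
  by_cases huu : u = u'
  · subst huu
    simp only [Pi.single_eq_same, mul_one] at h1
    exact ⟨rfl, h1⟩
  · rw [Pi.single_eq_of_ne huu, mul_zero] at h1
    exfalso
    rcases h with rfl | rfl <;> revert h1 <;> decide

/-- the averaging operator `∑_u (-1)^{γ u} L_{g u} C L_u⁻¹` (recall `L_u⁻¹ = sg (β u u) • L_u`). -/
noncomputable def avg [Fintype U] (β : U →ₗ[ZMod 2] U →ₗ[ZMod 2] ZMod 2) (g : U → U)
    (γ : U → ZMod 2) (C : End3 U) : End3 U :=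
  ∑ u : U, sg (γ u) • (Lop β (g u) * C * (sg (β u u) • Lop β u))

variable {K : Type*} [Group K]

/-- the operator of an element of the kernel of `piHom`. -/
def opOf (β : U →ₗ[ZMod 2] U →ₗ[ZMod 2] ZMod 2) (ρ : Representation (ZMod 2) K U)
    (x : ↥(piHom β ρ).ker) : End3 U :=
  (((x : ↥(Rgrp β ρ)) : (End3 U)ˣ × K).1 : End3 U)

/-- the operator of an element of `Rgrp`. -/
def opR (β : U →ₗ[ZMod 2] U →ₗ[ZMod 2] ZMod 2) (ρ : Representation (ZMod 2) K U)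
    (r : ↥(Rgrp β ρ)) : End3 U :=
  ((r : (End3 U)ˣ × K).1 : End3 U)

theorem opR_mul (β : U →ₗ[ZMod 2] U →ₗ[ZMod 2] ZMod 2) (ρ : Representation (ZMod 2) K U)
    (r s : ↥(Rgrp β ρ)) : opR β ρ (r * s) = opR β ρ r * opR β ρ s := rfl

theorem opR_one (β : U →ₗ[ZMod 2] U →ₗ[ZMod 2] ZMod 2) (ρ : Representation (ZMod 2) K U) :
    opR β ρ (1 : ↥(Rgrp β ρ)) = 1 := rfl

theorem opR_mul_inv (β : U →ₗ[ZMod 2] U →ₗ[ZMod 2] ZMod 2) (ρ : Representation (ZMod 2) K U)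
    (r : ↥(Rgrp β ρ)) : opR β ρ r * opR β ρ r⁻¹ = 1 := by
  rw [← opR_mul, mul_inv_cancel, opR_one]

theorem opR_inv_mul (β : U →ₗ[ZMod 2] U →ₗ[ZMod 2] ZMod 2) (ρ : Representation (ZMod 2) K U)
    (r : ↥(Rgrp β ρ)) : opR β ρ r⁻¹ * opR β ρ r = 1 := by
  rw [← opR_mul, inv_mul_cancel, opR_one]

theorem opR_comm_R (β : U →ₗ[ZMod 2] U →ₗ[ZMod 2] ZMod 2) (ρ : Representation (ZMod 2) K U)
    (r : ↥(Rgrp β ρ)) (v : U) : opR β ρ r * Rop β v = Rop β v * opR β ρ r := r.2.1 v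

theorem opR_twist (β : U →ₗ[ZMod 2] U →ₗ[ZMod 2] ZMod 2) (ρ : Representation (ZMod 2) K U)
    (r : ↥(Rgrp β ρ)) (u : U) : ∃ ε : ZMod 3, (ε = 1 ∨ ε = -1) ∧
      opR β ρ r * Lop β u = ε • (Lop β (ρ (piHom β ρ r) u) * opR β ρ r) := r.2.2 u

theorem opOf_eq_opR (β : U →ₗ[ZMod 2] U →ₗ[ZMod 2] ZMod 2) (ρ : Representation (ZMod 2) K U)
    (x : ↥(piHom β ρ).ker) : opOf β ρ x = opR β ρ (x : ↥(Rgrp β ρ)) := rfl

theorem opOf_mul (β : U →ₗ[ZMod 2] U →ₗ[ZMod 2] ZMod 2) (ρ : Representation (ZMod 2) K U)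
    (x y : ↥(piHom β ρ).ker) : opOf β ρ (x * y) = opOf β ρ x * opOf β ρ y := rfl

theorem opOf_one (β : U →ₗ[ZMod 2] U →ₗ[ZMod 2] ZMod 2) (ρ : Representation (ZMod 2) K U) :
    opOf β ρ (1 : ↥(piHom β ρ).ker) = 1 := rfl

theorem ker_snd (β : U →ₗ[ZMod 2] U →ₗ[ZMod 2] ZMod 2) (ρ : Representation (ZMod 2) K U)
    (x : ↥(piHom β ρ).ker) : ((x : ↥(Rgrp β ρ)) : (End3 U)ˣ × K).2 = 1 :=
  (MonoidHom.mem_ker).mp x.2

theorem opOf_inj (β : U →ₗ[ZMod 2] U →ₗ[ZMod 2] ZMod 2) (ρ : Representation (ZMod 2) K U)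
    (x y : ↥(piHom β ρ).ker) (h : opOf β ρ x = opOf β ρ y) : x = y := by
  apply Subtype.ext; apply Subtype.ext
  apply Prod.ext
  · exact Units.ext h
  · rw [ker_snd, ker_snd]

/-- the element `(L_u, 1)` of the kernel. -/
def qelem (β : U →ₗ[ZMod 2] U →ₗ[ZMod 2] ZMod 2) (ρ : Representation (ZMod 2) K U) (u : U) :
    ↥(piHom β ρ).ker :=
  ⟨⟨(LU β u, 1), by
    refine ⟨fun v => Lop_Rop_comm β u v, fun u' => ⟨sg (β u u' + β u' u), sg_pm _, ?_⟩⟩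
    show Lop β u * Lop β u' = sg (β u u' + β u' u) • (Lop β (ρ (1 : K) u') * Lop β u)
    rw [map_one, Module.End.one_apply]
    exact Lop_comm_sign β u u'⟩, rfl⟩

/-- the element `(-1, 1)` of the kernel. -/
def zelem (β : U →ₗ[ZMod 2] U →ₗ[ZMod 2] ZMod 2) (ρ : Representation (ZMod 2) K U) :
    ↥(piHom β ρ).ker :=
  ⟨⟨(-1, 1), by
    refine ⟨fun v => ?_, fun u' => ⟨1, Or.inl rfl, ?_⟩⟩
    · show ((-1 : (End3 U)ˣ) : End3 U) * Rop β v = Rop β v * ((-1 : (End3 U)ˣ) : End3 U)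
      rw [Units.val_neg, Units.val_one, neg_one_mul, mul_neg_one]
    · show ((-1 : (End3 U)ˣ) : End3 U) * Lop β u'
        = (1 : ZMod 3) • (Lop β (ρ (1 : K) u') * ((-1 : (End3 U)ˣ) : End3 U))
      rw [map_one, Module.End.one_apply, Units.val_neg, Units.val_one, neg_one_mul, mul_neg_one,
        one_smul]⟩, rfl⟩

theorem opOf_qelem (β : U →ₗ[ZMod 2] U →ₗ[ZMod 2] ZMod 2) (ρ : Representation (ZMod 2) K U)
    (u : U) : opOf β ρ (qelem β ρ u) = Lop β u := rfl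

theorem opOf_zelem (β : U →ₗ[ZMod 2] U →ₗ[ZMod 2] ZMod 2) (ρ : Representation (ZMod 2) K U) :
    opOf β ρ (zelem β ρ) = (-1 : ZMod 3) • (1 : End3 U) := by
  show ((-1 : (End3 U)ˣ) : End3 U) = (-1 : ZMod 3) • (1 : End3 U)
  rw [Units.val_neg, Units.val_one, neg_one_smul_End]

theorem ker_elem {β : U →ₗ[ZMod 2] U →ₗ[ZMod 2] ZMod 2} (hk : KerStmt β)
    (ρ : Representation (ZMod 2) K U) (x : ↥(piHom β ρ).ker) :
    ∃ (w : U) (ε : ZMod 3), (ε = 1 ∨ ε = -1) ∧ opOf β ρ x = ε • Lop β w := by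
  have hx := (x : ↥(Rgrp β ρ)).2
  refine hk ((x : ↥(Rgrp β ρ)) : (End3 U)ˣ × K).1 hx.1 (fun u => ?_)
  obtain ⟨ε, h1, e1⟩ := hx.2 u
  refine ⟨ε, h1, ?_⟩
  rw [ker_snd, map_one, Module.End.one_apply] at e1
  exact e1

theorem ker_cases {β : U →ₗ[ZMod 2] U →ₗ[ZMod 2] ZMod 2} (hk : KerStmt β)
    (ρ : Representation (ZMod 2) K U) (x : ↥(piHom β ρ).ker) :
    ∃ w : U, x = qelem β ρ w ∨ x = zelem β ρ * qelem β ρ w := by
  obtain ⟨w, ε, h, e⟩ := ker_elem hk ρ x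
  refine ⟨w, ?_⟩
  rcases h with rfl | rfl
  · left; apply opOf_inj; rw [e, one_smul, opOf_qelem]
  · right; apply opOf_inj; rw [e, opOf_mul, opOf_zelem, opOf_qelem, smul_mul_assoc, one_mul]

/-- the `U`-component of an element of the kernel. -/
noncomputable def chiFun {β : U →ₗ[ZMod 2] U →ₗ[ZMod 2] ZMod 2} (hk : KerStmt β)
    (ρ : Representation (ZMod 2) K U) (x : ↥(piHom β ρ).ker) : U :=
  Classical.choose (ker_elem hk ρ x)

theorem chiFun_spec {β : U →ₗ[ZMod 2] U →ₗ[ZMod 2] ZMod 2} (hk : KerStmt β)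
    (ρ : Representation (ZMod 2) K U) (x : ↥(piHom β ρ).ker) :
    ∃ ε : ZMod 3, (ε = 1 ∨ ε = -1) ∧ opOf β ρ x = ε • Lop β (chiFun hk ρ x) :=
  Classical.choose_spec (ker_elem hk ρ x)

theorem chiFun_eq {β : U →ₗ[ZMod 2] U →ₗ[ZMod 2] ZMod 2} (hk : KerStmt β)
    (ρ : Representation (ZMod 2) K U) (x : ↥(piHom β ρ).ker) (w : U) (ε : ZMod 3)
    (h : ε = 1 ∨ ε = -1) (e : opOf β ρ x = ε • Lop β w) : chiFun hk ρ x = w := by
  obtain ⟨ε', h', e'⟩ := chiFun_spec hk ρ x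
  rw [e] at e'
  exact (Lop_inj β w _ ε ε' h h' e').1.symm

/-- the homomorphism `ker piHom → U`, `± L_u ↦ u`. -/
noncomputable def chi {β : U →ₗ[ZMod 2] U →ₗ[ZMod 2] ZMod 2} (hk : KerStmt β)
    (ρ : Representation (ZMod 2) K U) : ↥(piHom β ρ).ker →* Multiplicative U where
  toFun x := Multiplicative.ofAdd (chiFun hk ρ x)
  map_one' := by
    have : chiFun hk ρ (1 : ↥(piHom β ρ).ker) = 0 :=
      chiFun_eq hk ρ 1 0 1 (Or.inl rfl) (by rw [opOf_one, Lop_zero, one_smul])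
    rw [this]; rfl
  map_mul' x y := by
    obtain ⟨ε, h, e⟩ := chiFun_spec hk ρ x
    obtain ⟨ε', h', e'⟩ := chiFun_spec hk ρ y
    have : chiFun hk ρ (x * y) = chiFun hk ρ x + chiFun hk ρ y := by
      refine chiFun_eq hk ρ (x * y) _ (ε * ε' * sg (β (chiFun hk ρ x) (chiFun hk ρ y)))
        (pm_mul _ _ (pm_mul _ _ h h') (sg_pm _)) ?_
      rw [opOf_mul, e, e', smul_mul_smul_comm, Lop_mul, smul_smul]
    rw [this]; rfl

theorem chi_eq {β : U →ₗ[ZMod 2] U →ₗ[ZMod 2] ZMod 2} (hk : KerStmt β)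
    (ρ : Representation (ZMod 2) K U) (x : ↥(piHom β ρ).ker) (w : U) (ε : ZMod 3)
    (h : ε = 1 ∨ ε = -1) (e : opOf β ρ x = ε • Lop β w) :
    chi hk ρ x = Multiplicative.ofAdd w := by
  show Multiplicative.ofAdd (chiFun hk ρ x) = Multiplicative.ofAdd w
  rw [chiFun_eq hk ρ x w ε h e]

theorem chi_spec {β : U →ₗ[ZMod 2] U →ₗ[ZMod 2] ZMod 2} (hk : KerStmt β)
    (ρ : Representation (ZMod 2) K U) (x : ↥(piHom β ρ).ker) :
    ∃ ε : ZMod 3, (ε = 1 ∨ ε = -1) ∧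
      opOf β ρ x = ε • Lop β (Multiplicative.toAdd (chi hk ρ x)) :=
  chiFun_spec hk ρ x

theorem chi_qelem {β : U →ₗ[ZMod 2] U →ₗ[ZMod 2] ZMod 2} (hk : KerStmt β)
    (ρ : Representation (ZMod 2) K U) (u : U) :
    chi hk ρ (qelem β ρ u) = Multiplicative.ofAdd u :=
  chi_eq hk ρ _ u 1 (Or.inl rfl) (by rw [opOf_qelem, one_smul])

theorem chi_zelem {β : U →ₗ[ZMod 2] U →ₗ[ZMod 2] ZMod 2} (hk : KerStmt β)
    (ρ : Representation (ZMod 2) K U) : chi hk ρ (zelem β ρ) = 1 :=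
  chi_eq hk ρ _ 0 (-1) (Or.inr rfl) (by rw [opOf_zelem, Lop_zero])

end Cfsg.Agent.Lib.Helper59.CL
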