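import Cfsg.Agent.Lib.Helper59.CL1

/-! S3084 piece AVG: the averaged operator commutes with `Rop` and is a twisted intertwiner. -/

set_option autoImplicit false

namespace Cfsg.Agent.Lib.Helper59.CL

variable {U : Type*} [AddCommGroup U] [Module (ZMod 2) U]

theorem avg_comm_R [Fintype U] (β : U →ₗ[ZMod 2] U →ₗ[ZMod 2] ZMod 2) (g : U → U)
    (γ : U → ZMod 2) (C : End3 U) (hC : ∀ v, C * Rop β v = Rop β v * C) (v : U) :
    avg β g γ C * Rop β v = Rop β v * avg β g γ C := by
  unfold avg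
  refine (Commute.sum_left _ _ _ (fun u _ => ?_)).eq
  have h1 : Commute (Lop β (g u)) (Rop β v) := Lop_Rop_comm β (g u) v
  have h2 : Commute C (Rop β v) := hC v
  have h3 : Commute (sg (β u u) • Lop β u) (Rop β v) :=
    (show Commute (Lop β u) (Rop β v) from Lop_Rop_comm β u v).smul_left _
  exact ((h1.mul_left h2).mul_left h3).smul_left _

theorem Linv_mul (β : U →ₗ[ZMod 2] U →ₗ[ZMod 2] ZMod 2) (v u : U) :
    (sg (β (v + u) (v + u)) • Lop β (v + u)) * Lop β v
      = sg (β v u) • (sg (β u u) • Lop β u) := by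
  have e : v + u + v = u := by rw [add_comm v u, add_add_cancel_U]
  rw [smul_mul_assoc, Lop_mul, smul_smul, smul_smul, e, ← sg_add, ← sg_add]
  congr 2
  simp only [map_add, LinearMap.add_apply]
  have two0 : (2 : ZMod 2) = 0 := rfl
  linear_combination (β v v + β u v) * two0

theorem avg_twist [Fintype U] (β : U →ₗ[ZMod 2] U →ₗ[ZMod 2] ZMod 2) (g : U →ₗ[ZMod 2] U)
    (γ : U → ZMod 2) (hγ : ∀ u v, γ (u + v) = γ u + γ v + (β (g u) (g v) + β u v))
    (C : End3 U) (v : U) :
    avg β g γ C * Lop β v = sg (γ v) • (Lop β (g v) * avg β g γ C) := by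
  unfold avg
  rw [Finset.sum_mul, Finset.mul_sum, Finset.smul_sum]
  refine ((Equiv.sum_comp (Equiv.addLeft v)
    (fun u => sg (γ u) • (Lop β (g u) * C * (sg (β u u) • Lop β u)) * Lop β v)).symm).trans ?_
  apply Finset.sum_congr rfl
  intro u _
  have hl : sg (γ (v + u)) • (Lop β (g (v + u)) * C * (sg (β (v + u) (v + u)) • Lop β (v + u)))
        * Lop β v
      = (sg (γ (v + u)) * sg (β v u)) • (Lop β (g v + g u) * C * (sg (β u u) • Lop β u)) := by
    rw [smul_mul_assoc, mul_assoc, Linv_mul, mul_smul_comm, smul_smul, map_add]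
  have hr : sg (γ v) • (Lop β (g v) * (sg (γ u) • (Lop β (g u) * C * (sg (β u u) • Lop β u))))
      = (sg (γ v) * sg (γ u) * sg (β (g v) (g u)))
        • (Lop β (g v + g u) * C * (sg (β u u) • Lop β u)) := by
    rw [mul_smul_comm, smul_smul, ← mul_assoc, ← mul_assoc, Lop_mul, smul_mul_assoc,
      smul_mul_assoc, smul_smul]
  show sg (γ (v + u)) • (Lop β (g (v + u)) * C * (sg (β (v + u) (v + u)) • Lop β (v + u)))
        * Lop β v
      = sg (γ v) • (Lop β (g v) * (sg (γ u) • (Lop β (g u) * C * (sg (β u u) • Lop β u))))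
  rw [hl, hr]
  congr 1
  rw [hγ v u, ← sg_add, ← sg_add, ← sg_add]
  congr 1
  have two0 : (2 : ZMod 2) = 0 := rfl
  linear_combination (β v u) * two0

end Cfsg.Agent.Lib.Helper59.CL
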