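import Cfsg.Agent.Lib.Helper59.CL1

/-! S3084 piece CARD: the kernel of `piHom` has `2 * |U|` elements. -/

set_option autoImplicit false

namespace Cfsg.Agent.Lib.Helper59.CL

variable {U : Type*} [AddCommGroup U] [Module (ZMod 2) U]
variable {K : Type*} [Group K]

theorem opOf_zq (β : U →ₗ[ZMod 2] U →ₗ[ZMod 2] ZMod 2) (ρ : Representation (ZMod 2) K U)
    (u : U) : opOf β ρ (zelem β ρ * qelem β ρ u) = (-1 : ZMod 3) • Lop β u := by
  rw [opOf_mul, opOf_zelem, opOf_qelem, smul_mul_assoc, one_mul]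

theorem card_ker [Finite U] (β : U →ₗ[ZMod 2] U →ₗ[ZMod 2] ZMod 2) (hk : KerStmt β)
    (ρ : Representation (ZMod 2) K U) : Nat.card ↥(piHom β ρ).ker = 2 * Nat.card U := by
  classical
  let f : Bool × U → ↥(piHom β ρ).ker :=
    fun p => if p.1 then zelem β ρ * qelem β ρ p.2 else qelem β ρ p.2
  have hop : ∀ p : Bool × U, opOf β ρ (f p) = (if p.1 then (-1 : ZMod 3) else 1) • Lop β p.2 := by
    rintro ⟨b, u⟩
    cases b
    · show opOf β ρ (qelem β ρ u) = (1 : ZMod 3) • Lop β u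
      rw [opOf_qelem, one_smul]
    · show opOf β ρ (zelem β ρ * qelem β ρ u) = (-1 : ZMod 3) • Lop β u
      exact opOf_zq β ρ u
  have hpm : ∀ b : Bool, (if b then (-1 : ZMod 3) else 1) = 1 ∨ (if b then (-1 : ZMod 3) else 1) = -1 := by
    intro b; cases b
    · left; rfl
    · right; rfl
  have hinj : Function.Injective f := by
    rintro ⟨b, u⟩ ⟨b', u'⟩ h
    have h1 := congrArg (opOf β ρ) h
    rw [hop, hop] at h1
    obtain ⟨h2, h3⟩ := Lop_inj β u u' _ _ (hpm b) (hpm b') h1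
    have h4 : b = b' := by
      revert h3
      cases b <;> cases b' <;> decide
    exact Prod.ext h4 h2
  have hsurj : Function.Surjective f := by
    intro x
    obtain ⟨w, h | h⟩ := ker_cases hk ρ x
    · exact ⟨(false, w), h.symm⟩
    · exact ⟨(true, w), h.symm⟩
  rw [← Nat.card_congr (Equiv.ofBijective f ⟨hinj, hsurj⟩), Nat.card_prod]
  simp
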