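import Cfsg.Agent.Lib.Helper59.CL1

/-! S3084 piece CENT: the twisted group algebra is central. -/

set_option autoImplicit false

namespace Cfsg.Agent.Lib.Helper59.CL

variable {U : Type*} [AddCommGroup U] [Module (ZMod 2) U]

theorem sg_eq_imp_add_zero (a b : ZMod 2) (h : sg a = sg b) : a + b = 0 := by
  revert a b; decide

theorem Lop_delta [DecidableEq U] (β : U →ₗ[ZMod 2] U →ₗ[ZMod 2] ZMod 2) (u : U) :
    Lop β u (Pi.single 0 1) = (Pi.single u 1 : U → ZMod 3) := by
  rw [Lop_single, map_zero, sg_zero, one_smul, add_zero]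

theorem Rop_delta [DecidableEq U] (β : U →ₗ[ZMod 2] U →ₗ[ZMod 2] ZMod 2) (u : U) :
    Rop β u (Pi.single 0 1) = (Pi.single u 1 : U → ZMod 3) := by
  rw [Rop_single, map_zero, LinearMap.zero_apply, sg_zero, one_smul, zero_add]

theorem cent_stmt [Finite U] (β : U →ₗ[ZMod 2] U →ₗ[ZMod 2] ZMod 2) (hnd : Nondeg β) :
    CentStmt β := by
  classical
  intro T hL hR
  obtain ⟨a, ha⟩ : ∃ a : U → ZMod 3, a = T (Pi.single 0 1) := ⟨_, rfl⟩
  have h1 : ∀ u, T (Pi.single u 1) = Lop β u a := by
    intro u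
    rw [← Lop_delta β u, ha]
    have : T (Lop β u (Pi.single 0 1)) = (T * Lop β u) (Pi.single 0 1) := rfl
    rw [this, hL u]; rfl
  have h2 : ∀ u, T (Pi.single u 1) = Rop β u a := by
    intro u
    rw [← Rop_delta β u, ha]
    have : T (Rop β u (Pi.single 0 1)) = (T * Rop β u) (Pi.single 0 1) := rfl
    rw [this, hR u]; rfl
  have h3 : ∀ w, a w ≠ 0 → w = 0 := by
    intro w hw
    apply hnd
    intro u
    have h4 := congrFun ((h1 u).symm.trans (h2 u)) (w + u)
    rw [Lop_apply, Rop_apply, add_add_cancel_U] at h4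
    exact sg_eq_imp_add_zero _ _ (mul_right_cancel₀ hw h4)
  have h5 : a = a 0 • (Pi.single 0 1 : U → ZMod 3) := by
    funext w
    by_cases hw : w = 0
    · subst hw; simp
    · have : a w = 0 := by
        by_contra hne
        exact hw (h3 w hne)
      simp [this, hw]
  refine ⟨a 0, ?_⟩
  apply LinearMap.pi_ext
  intro u x
  have e1 : (Pi.single u x : U → ZMod 3) = x • (Pi.single u 1 : U → ZMod 3) := by
    funext w
    by_cases hw : w = u
    · subst hw; simp
    · simp [hw]
  rw [e1, map_smul, map_smul, h1 u, h5, map_smul, Lop_delta, LinearMap.smul_apply,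
    Module.End.one_apply]
  simp
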