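import Cfsg.Agent.Lib.Helper59.CL1

/-! S3084 piece INV: a nonzero twisted intertwiner is invertible. -/

set_option autoImplicit false

namespace Cfsg.Agent.Lib.Helper59.CL

variable {U : Type*} [AddCommGroup U] [Module (ZMod 2) U]

theorem isUnit_of_twist [Finite U] (β : U →ₗ[ZMod 2] U →ₗ[ZMod 2] ZMod 2) (hs : SimpleStmt β)
    (g : U → U) (γ : U → ZMod 2) (T : End3 U) (hT : T ≠ 0)
    (hR : ∀ v, T * Rop β v = Rop β v * T)
    (hL : ∀ u, T * Lop β u = sg (γ u) • (Lop β (g u) * T)) : IsUnit T := by
  have hker : LinearMap.ker T = ⊥ := by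
    by_contra hne
    have htop : LinearMap.ker T = ⊤ := by
      apply hs (LinearMap.ker T) _ _ hne
      · intro u f hf
        rw [LinearMap.mem_ker] at hf ⊢
        have h1 : T (Lop β u f) = (T * Lop β u) f := rfl
        rw [h1, hL u, LinearMap.smul_apply, Module.End.mul_apply, hf, map_zero, smul_zero]
      · intro v f hf
        rw [LinearMap.mem_ker] at hf ⊢
        have h1 : T (Rop β v f) = (T * Rop β v) f := rfl
        rw [h1, hR v, Module.End.mul_apply, hf, map_zero]
    exact hT (LinearMap.ker_eq_top.mp htop)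
  exact (LinearMap.isUnit_iff_ker_eq_bot T).mpr hker

end Cfsg.Agent.Lib.Helper59.CL
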