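import Cfsg.Agent.Lib.Helper59.CL1

/-! S3084 piece KER: a unit normalising every `± L_u` trivially is `± L_w`. -/

set_option autoImplicit false

namespace Cfsg.Agent.Lib.Helper59.CL

variable {U : Type*} [AddCommGroup U] [Module (ZMod 2) U]

theorem sg_inj (a b : ZMod 2) (h : sg a = sg b) : a = b := by revert a b; decide

theorem smul_one_inj (c c' : ZMod 3) (h : c • (1 : End3 U) = c' • (1 : End3 U)) : c = c' := by
  have h1 := congrArg (fun T : End3 U => T (fun _ => (1 : ZMod 3)) (0 : U)) h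
  simpa using h1

theorem smul_unit_inj (X : (End3 U)ˣ) (c c' : ZMod 3)
    (h : c • (X : End3 U) = c' • (X : End3 U)) : c = c' := by
  apply smul_one_inj (U := U)
  have h1 := congrArg (fun T : End3 U => T * ((X⁻¹ : (End3 U)ˣ) : End3 U)) h
  simp only [smul_mul_assoc, Units.mul_inv] at h1
  exact h1

theorem ker_stmt [Finite U] (β : U →ₗ[ZMod 2] U →ₗ[ZMod 2] ZMod 2) (hnd : Nondeg β)
    (hc : CentStmt β) : KerStmt β := by
  classical
  intro T hR hL
  choose ε hε he using hL
  -- multiplicativity of the sign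
  have hmul : ∀ u v, ε (u + v) = ε u * ε v := by
    intro u v
    have h1 : (T : End3 U) * (Lop β u * Lop β v)
        = (ε u * ε v) • ((Lop β u * Lop β v) * (T : End3 U)) := by
      rw [← mul_assoc, he u, smul_mul_assoc, mul_assoc, he v, mul_smul_comm, smul_smul, mul_assoc]
    rw [Lop_mul, mul_smul_comm, he (u + v), smul_mul_assoc, smul_smul, smul_smul] at h1
    have h2 := smul_unit_inj (LU β (u + v) * T) _ _ h1
    have h3 : ε (u + v) * sg (β u v) = (ε u * ε v) * sg (β u v) := by rw [mul_comm, h2]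
    exact mul_right_cancel₀ (sg_ne_zero _) h3
  obtain ⟨lam, hlam⟩ : ∃ lam : U → ZMod 2, lam = fun u => if ε u = 1 then 0 else 1 := ⟨_, rfl⟩
  have hsg : ∀ u, sg (lam u) = ε u := by
    intro u
    rw [hlam]
    show sg (if ε u = 1 then 0 else 1) = ε u
    rcases hε u with h | h
    · rw [if_pos h, sg_zero, h]
    · rw [if_neg (by rw [h]; decide), sg_one, h]
  have hadd : ∀ u v, lam (u + v) = lam u + lam v := by
    intro u v
    have h1 : sg (lam (u + v)) = sg (lam u + lam v) := by rw [sg_add, hsg, hsg, hsg, hmul]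
    exact sg_inj _ _ h1
  obtain ⟨lamLin, hlamLin⟩ : ∃ lamLin : U →ₗ[ZMod 2] ZMod 2, ∀ u, lamLin u = lam u :=
    ⟨AddMonoidHom.toZModLinearMap 2 (AddMonoidHom.mk' lam hadd), fun u => rfl⟩
  haveI : Module.Finite (ZMod 2) U := Module.Finite.of_finite
  obtain ⟨Φ, hΦ⟩ : ∃ Φ : U →ₗ[ZMod 2] Module.Dual (ZMod 2) U, ∀ w u, Φ w u = β w u + β u w :=
    ⟨β + β.flip, fun w u => rfl⟩
  have hinj : Function.Injective Φ := by
    refine (injective_iff_map_eq_zero Φ).mpr (fun w hw => ?_)
    apply hnd
    intro u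
    have h1 := congrArg (fun φ : Module.Dual (ZMod 2) U => φ u) hw
    simp only [hΦ, LinearMap.zero_apply] at h1
    rw [add_comm]; exact h1
  have hsurj : Function.Surjective Φ :=
    (LinearMap.injective_iff_surjective_of_finrank_eq_finrank
      (Subspace.dual_finrank_eq).symm).mp hinj
  obtain ⟨w, hw⟩ := hsurj lamLin
  have hw' : ∀ u, β w u + β u w = lam u := by
    intro u
    have h1 := congrArg (fun φ : Module.Dual (ZMod 2) U => φ u) hw
    simp only [hΦ, hlamLin] at h1
    exact h1
  obtain ⟨T', hT'⟩ : ∃ T' : End3 U, T' = (sg (β w w) • Lop β w) * (T : End3 U) := ⟨_, rfl⟩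
  have hT'L : ∀ u, T' * Lop β u = Lop β u * T' := by
    intro u
    have hl : (sg (β w w) • Lop β w) * (T : End3 U) * Lop β u
        = (sg (β w w) * (ε u * ε u)) • (Lop β u * Lop β w * (T : End3 U)) := by
      calc (sg (β w w) • Lop β w) * (T : End3 U) * Lop β u
          = sg (β w w) • (Lop β w * ((T : End3 U) * Lop β u)) := by
            rw [smul_mul_assoc, smul_mul_assoc, mul_assoc]
        _ = sg (β w w) • (Lop β w * (ε u • (Lop β u * (T : End3 U)))) := by rw [he u]
        _ = (sg (β w w) * ε u) • (Lop β w * Lop β u * (T : End3 U)) := by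
            rw [mul_smul_comm, smul_smul, mul_assoc]
        _ = (sg (β w w) * ε u) • ((ε u • (Lop β u * Lop β w)) * (T : End3 U)) := by
            rw [Lop_comm_sign β w u, hw' u, hsg u]
        _ = (sg (β w w) * (ε u * ε u)) • (Lop β u * Lop β w * (T : End3 U)) := by
            rw [smul_mul_assoc, smul_smul, mul_assoc]
    have hr : Lop β u * ((sg (β w w) • Lop β w) * (T : End3 U))
        = sg (β w w) • (Lop β u * Lop β w * (T : End3 U)) := by
      rw [smul_mul_assoc, mul_smul_comm, mul_assoc]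
    rw [hT', hl, hr, pm_mul_self _ (hε u), mul_one]
  have hT'R : ∀ v, T' * Rop β v = Rop β v * T' := by
    intro v
    rw [hT']
    exact ((show Commute (Lop β w) (Rop β v) from Lop_Rop_comm β w v).smul_left _).mul_left (hR v)
  obtain ⟨c, hc'⟩ := hc T' hT'L hT'R
  have hT : (T : End3 U) = c • Lop β w := by
    have h1 : Lop β w * T' = (T : End3 U) := by
      rw [hT', ← mul_assoc, mul_smul_comm, Lop_sq, smul_smul, sg_mul_self, one_smul, one_mul]
    rw [← h1, hc', mul_smul_comm, mul_one]
  have hc0 : c ≠ 0 := by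
    rintro rfl
    rw [zero_smul] at hT
    have h2 : (T : End3 U) * ((T⁻¹ : (End3 U)ˣ) : End3 U) = 1 := Units.mul_inv T
    rw [hT, zero_mul] at h2
    have h3 := congrArg (fun S : End3 U => S (fun _ => (1 : ZMod 3)) (0 : U)) h2
    simp at h3
  exact ⟨w, c, pm_of_ne_zero c hc0, hT⟩

end Cfsg.Agent.Lib.Helper59.CL
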