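import Cfsg.Agent.Lib.Helper59.CLSum

/-! S3084 piece NONVAN: some averaged operator is nonzero. -/

set_option autoImplicit false

namespace Cfsg.Agent.Lib.Helper59.CL

variable {U : Type*} [AddCommGroup U] [Module (ZMod 2) U]

theorem avg_term_delta [DecidableEq U] (β : U →ₗ[ZMod 2] U →ₗ[ZMod 2] ZMod 2)
    (g : U →ₗ[ZMod 2] U) (γ : U → ZMod 2) (c u : U) :
    (sg (γ u) • (Lop β (g u) * Lop β c * (sg (β u u) • Lop β u))) (Pi.single 0 1)
      = (sg (γ u) * sg (β u u) * sg (β c u) * sg (β (g u) (c + u)))
        • (Pi.single (g u + (c + u)) 1 : U → ZMod 3) := by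
  rw [LinearMap.smul_apply, Module.End.mul_apply, Module.End.mul_apply, LinearMap.smul_apply,
    Lop_single, map_zero, sg_zero, one_smul, add_zero, map_smul, Lop_single, map_smul, map_smul,
    Lop_single, smul_smul, smul_smul, smul_smul]

theorem avg_delta_apply [Fintype U] [DecidableEq U] (β : U →ₗ[ZMod 2] U →ₗ[ZMod 2] ZMod 2)
    (g : U →ₗ[ZMod 2] U) (γ : U → ZMod 2) (c : U) :
    avg β g γ (Lop β c) (Pi.single 0 1) c
      = ∑ u : U, if g u = u then sg (γ u) * sg (β c u + β u c) else 0 := by
  unfold avg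
  rw [LinearMap.sum_apply, Finset.sum_apply]
  apply Finset.sum_congr rfl
  intro u _
  rw [avg_term_delta, Pi.smul_apply, smul_eq_mul]
  by_cases hg : g u = u
  · have e1 : g u + (c + u) = c := by
      rw [hg, add_comm c u, ← add_assoc, add_self_U, zero_add]
    rw [if_pos hg, e1, Pi.single_eq_same, mul_one, hg, ← sg_add, ← sg_add, ← sg_add, ← sg_add]
    congr 1
    simp only [map_add]
    have two0 : (2 : ZMod 2) = 0 := rfl
    linear_combination (β u u) * two0
  · have e1 : c ≠ g u + (c + u) := by
      intro h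
      apply hg
      have h2 : g u + u = 0 := by
        have h3 : g u + (c + u) + c = c + c := by rw [← h]
        rw [add_self_U] at h3
        rw [← h3, add_comm c u, ← add_assoc, add_add_cancel_U]
      calc g u = g u + u + u := (add_add_cancel_U _ _).symm
        _ = u := by rw [h2, zero_add]
    rw [if_neg hg, Pi.single_eq_of_ne e1, mul_zero]

theorem avg_ne_zero [Fintype U] (β : U →ₗ[ZMod 2] U →ₗ[ZMod 2] ZMod 2) (hnd : Nondeg β)
    (g : U →ₗ[ZMod 2] U) (γ : U → ZMod 2) (hγ0 : γ 0 = 0) :
    ∃ c : U, avg β g γ (Lop β c) ≠ 0 := by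
  classical
  by_contra hcon
  push Not at hcon
  have h1 : ∑ c : U, ∑ u : U, (if g u = u then sg (γ u) * sg (β c u + β u c) else 0)
      = (0 : ZMod 3) := by
    apply Finset.sum_eq_zero
    intro c _
    rw [← avg_delta_apply, hcon c]
    rfl
  have h2 : ∑ c : U, ∑ u : U, (if g u = u then sg (γ u) * sg (β c u + β u c) else 0)
      = (Fintype.card U : ZMod 3) := by
    rw [Finset.sum_comm]
    have h3 : ∀ u : U, ∑ c : U, (if g u = u then sg (γ u) * sg (β c u + β u c) else 0)
        = if u = 0 then (Fintype.card U : ZMod 3) else 0 := by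
      intro u
      by_cases hu : u = 0
      · subst hu
        simp [hγ0, sg_zero]
      · rw [if_neg hu]
        by_cases hg : g u = u
        · simp only [if_pos hg]
          rw [← Finset.mul_sum, sum_sg_polar β hnd u hu, mul_zero]
        · simp [hg]
    rw [Finset.sum_congr rfl (fun u _ => h3 u)]
    simp
  exact card_U_ne_zero (U := U) (h2.symm.trans h1)

end Cfsg.Agent.Lib.Helper59.CL
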