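import Cfsg.Agent.Lib.Helper59.CLSum

/-! S3084 piece SIMPLE: the twisted group algebra has no proper nonzero two-sided ideal. -/

set_option autoImplicit false

namespace Cfsg.Agent.Lib.Helper59.CL

variable {U : Type*} [AddCommGroup U] [Module (ZMod 2) U]

theorem LR_apply (β : U →ₗ[ZMod 2] U →ₗ[ZMod 2] ZMod 2) (v : U) (f : U → ZMod 3) (x : U) :
    Lop β v (Rop β v f) x = sg (β v v) * sg (β v x + β x v) * f x := by
  rw [Lop_apply, Rop_apply, add_add_cancel_U, ← mul_assoc, ← sg_add, ← sg_add]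
  congr 2
  simp only [map_add, LinearMap.add_apply]
  have two0 : (2 : ZMod 2) = 0 := rfl
  linear_combination (0 : ZMod 2) * two0

theorem proj_apply [Fintype U] (β : U →ₗ[ZMod 2] U →ₗ[ZMod 2] ZMod 2) (f : U → ZMod 3) (x : U) :
    (∑ v : U, sg (β v v) • Lop β v (Rop β v f)) x = (∑ v : U, sg (β v x + β x v)) * f x := by
  rw [Finset.sum_apply, Finset.sum_mul]
  apply Finset.sum_congr rfl
  intro v _
  rw [Pi.smul_apply, smul_eq_mul, LR_apply, ← mul_assoc, ← mul_assoc, sg_mul_self, one_mul]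

theorem simple_stmt [Finite U] (β : U →ₗ[ZMod 2] U →ₗ[ZMod 2] ZMod 2) (hnd : Nondeg β) :
    SimpleStmt β := by
  classical
  haveI := Fintype.ofFinite U
  intro J hL hR hJ
  -- the projection onto the coordinate `0` preserves `J`
  have hP : ∀ f ∈ J, ((Fintype.card U : ZMod 3) * f 0) • (Pi.single 0 1 : U → ZMod 3) ∈ J := by
    intro f hf
    have h1 : (∑ v : U, sg (β v v) • Lop β v (Rop β v f)) ∈ J :=
      Submodule.sum_mem _ (fun v _ => Submodule.smul_mem _ _ (hL v _ (hR v _ hf)))
    have h2 : (∑ v : U, sg (β v v) • Lop β v (Rop β v f))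
        = ((Fintype.card U : ZMod 3) * f 0) • (Pi.single 0 1 : U → ZMod 3) := by
      funext x
      rw [proj_apply]
      by_cases hx : x = 0
      · subst hx
        rw [sum_sg_polar_zero]
        simp
      · rw [sum_sg_polar β hnd x hx]
        simp [hx]
    rw [← h2]; exact h1
  -- a function in `J` not vanishing at `0`
  obtain ⟨f, hf, hf0⟩ : ∃ f ∈ J, f ≠ 0 := by
    by_contra hcon
    push Not at hcon
    exact hJ ((Submodule.eq_bot_iff J).mpr hcon)
  obtain ⟨w, hw⟩ : ∃ w, f w ≠ 0 := by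
    by_contra hcon
    push Not at hcon
    exact hf0 (funext hcon)
  have hf' : Lop β w f ∈ J := hL w f hf
  have hf'0 : Lop β w f 0 ≠ 0 := by
    rw [Lop_apply, zero_add]
    exact mul_ne_zero (sg_ne_zero _) hw
  have hd0 : (Pi.single 0 1 : U → ZMod 3) ∈ J := by
    have h3 := hP _ hf'
    have hc : (Fintype.card U : ZMod 3) * Lop β w f 0 ≠ 0 := mul_ne_zero card_U_ne_zero hf'0
    have h4 := Submodule.smul_mem J ((Fintype.card U : ZMod 3) * Lop β w f 0)⁻¹ h3
    rw [smul_smul, inv_mul_cancel₀ hc, one_smul] at h4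
    exact h4
  have hd : ∀ u : U, (Pi.single u 1 : U → ZMod 3) ∈ J := by
    intro u
    have h5 := hL u _ hd0
    rw [Lop_single, map_zero, sg_zero, one_smul, add_zero] at h5
    exact h5
  rw [Submodule.eq_top_iff']
  intro f
  rw [← Finset.univ_sum_single f]
  apply Submodule.sum_mem
  intro u _
  have e1 : (Pi.single u (f u) : U → ZMod 3) = f u • (Pi.single u 1 : U → ZMod 3) := by
    funext x
    by_cases hx : x = u
    · subst hx; simp
    · simp [hx]
  rw [e1]
  exact Submodule.smul_mem _ _ (hd u)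

end Cfsg.Agent.Lib.Helper59.CL
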