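import Cfsg.Agent.Lib.Helper59.CLCenter
import Cfsg.Agent.Lib.Helper3.Extra4

/-! S3084 piece XS: the kernel of `piHom` is an extraspecial 2-group. -/

set_option autoImplicit false

namespace Cfsg.Agent.Lib.Helper59.CL

variable {U : Type*} [AddCommGroup U] [Module (ZMod 2) U]
variable {K : Type*} [Group K]

theorem opOf_comm_sign (β : U →ₗ[ZMod 2] U →ₗ[ZMod 2] ZMod 2) (ρ : Representation (ZMod 2) K U)
    (a b : ↥(piHom β ρ).ker) (u v : U) (ε ε' : ZMod 3) (ea : opOf β ρ a = ε • Lop β u)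
    (eb : opOf β ρ b = ε' • Lop β v) :
    opOf β ρ (a * b) = sg (β u v + β v u) • opOf β ρ (b * a) := by
  rw [opOf_mul, opOf_mul, ea, eb, smul_mul_smul_comm, smul_mul_smul_comm, Lop_comm_sign β u v,
    smul_smul, smul_smul]
  congr 1
  ring

theorem ker_extraspecial [Finite U] [Nontrivial U] (β : U →ₗ[ZMod 2] U →ₗ[ZMod 2] ZMod 2)
    (hnd : Nondeg β) (hk : KerStmt β) (ρ : Representation (ZMod 2) K U)
    (hcard : Nat.card ↥(piHom β ρ).ker = 2 * Nat.card U) :
    Cfsg.IsExtraspecial 2 ↥(piHom β ρ).ker := by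
  classical
  haveI : Module.Finite (ZMod 2) U := Module.Finite.of_finite
  have hcardU : Nat.card U = 2 ^ Module.finrank (ZMod 2) U := by
    rw [Module.natCard_eq_pow_finrank (K := ZMod 2), Nat.card_zmod]
  haveI : Finite ↥(piHom β ρ).ker := by
    apply Nat.finite_of_card_ne_zero
    rw [hcard, hcardU]
    positivity
  have hz1 : zelem β ρ ≠ (1 : ↥(piHom β ρ).ker) := by
    intro h
    have h1 := congrArg (opOf β ρ) h
    rw [opOf_zelem, opOf_one] at h1
    have h2 := (smul_one_eq_one_iff (U := U) (-1 : ZMod 3)).mp h1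
    revert h2; decide
  have hzc : ∀ g : ↥(piHom β ρ).ker, g * zelem β ρ = zelem β ρ * g := by
    intro g
    apply opOf_inj
    rw [opOf_mul, opOf_mul, opOf_zelem, mul_smul_comm, smul_mul_assoc, mul_one, one_mul]
  refine Cfsg.Agent.Lib.Helper3.Extra4.es2_of_data ?_ (zelem β ρ) hz1 ?_ hzc ?_ ?_ ?_ ?_
  · apply IsPGroup.of_card (n := Module.finrank (ZMod 2) U + 1)
    rw [hcard, hcardU, pow_succ, mul_comm]
  · apply opOf_inj
    rw [pow_two, opOf_mul, opOf_zelem, opOf_one, smul_mul_smul_comm, mul_one]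
    have : (-1 : ZMod 3) * -1 = 1 := by decide
    rw [this, one_smul]
  · intro c hc
    obtain ⟨w, ε, hε, e⟩ := ker_elem hk ρ c
    have hw : w = 0 := by
      apply hnd
      intro u
      rw [add_comm]
      apply comm_imp_polar_zero β w u ε hε
      have h2 := congrArg (opOf β ρ) (hc (qelem β ρ u))
      rw [opOf_mul, opOf_mul, opOf_qelem, e] at h2
      exact h2.symm
    rw [hw, Lop_zero] at e
    rcases hε with rfl | rfl
    · left
      apply opOf_inj
      rw [e, one_smul, opOf_one]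
    · right
      apply opOf_inj
      rw [e, opOf_zelem]
  · intro a b
    obtain ⟨u, ε, hε, ea⟩ := ker_elem hk ρ a
    obtain ⟨v, ε', hε', eb⟩ := ker_elem hk ρ b
    have key := opOf_comm_sign β ρ a b u v ε ε' ea eb
    rcases sg_pm (β u v + β v u) with h | h
    · refine ⟨1, fun g => by rw [mul_one, one_mul], ?_⟩
      apply opOf_inj
      rw [key, h, one_smul, one_mul]
    · refine ⟨zelem β ρ, hzc, ?_⟩
      apply opOf_inj
      rw [key, h, mul_assoc, opOf_mul β ρ (zelem β ρ) (b * a), opOf_zelem, smul_mul_assoc, one_mul]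
  · intro a g
    obtain ⟨u, ε, hε, ea⟩ := ker_elem hk ρ a
    have hsq : opOf β ρ (a * a) = (ε * ε * sg (β u u)) • (1 : End3 U) := by
      rw [opOf_mul, ea, smul_mul_smul_comm, Lop_sq, smul_smul]
    apply opOf_inj
    rw [pow_two, opOf_mul β ρ g (a * a), opOf_mul β ρ (a * a) g, hsq, mul_smul_comm,
      smul_mul_assoc, mul_one, one_mul]
  · obtain ⟨w, hw⟩ := exists_ne (0 : U)
    have h1 : ∃ u, β u w + β w u ≠ 0 := by
      by_contra hcon
      push Not at hcon
      exact hw (hnd w hcon)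
    obtain ⟨u, hu⟩ := h1
    refine ⟨qelem β ρ u, qelem β ρ w, fun h => hu ?_⟩
    apply comm_imp_polar_zero β u w 1 (Or.inl rfl)
    have h2 := congrArg (opOf β ρ) h
    rw [opOf_mul, opOf_mul, opOf_qelem, opOf_qelem] at h2
    rw [one_smul]
    exact h2

end Cfsg.Agent.Lib.Helper59.CL
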