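import Cfsg.Agent.Lib.Helper59.CLEqSq
import Cfsg.Agent.Lib.Helper59.CLCard
import Cfsg.Agent.Lib.Helper59.CLXS
import Cfsg.Agent.Lib.Helper59.CLInv
import Cfsg.Agent.Lib.Helper59.CLCent
import Cfsg.Agent.Lib.Helper59.CLSimple
import Cfsg.Agent.Lib.Helper59.CLNonvan
import Cfsg.Agent.Lib.Helper59.CLAvg
import Cfsg.Agent.Lib.Helper59.CLKer
import Cfsg.Agent.Lib.Helper56.CLBETA
import Cfsg.Agent.Lib.Helper4.CLGAMMA
import Cfsg.Agent.Lib.Helper20.CLTRANSPORT

/-! S3084: assembly of the Clifford-group construction of `2^{1+2n}.K`. -/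

set_option autoImplicit false

namespace Cfsg.Agent.Lib.Helper59.CL

universe w

variable {U : Type*} [AddCommGroup U] [Module (ZMod 2) U]
variable {K : Type*} [Group K]

/-! ### assembly (helper59) -/

theorem exists_lift [Finite U] (β : U →ₗ[ZMod 2] U →ₗ[ZMod 2] ZMod 2) (hnd : Nondeg β)
    (g : U →ₗ[ZMod 2] U) (γ : U → ZMod 2)
    (hγ : ∀ u v, γ (u + v) = γ u + γ v + (β (g u) (g v) + β u v)) :
    ∃ T : (End3 U)ˣ, (∀ v, (T : End3 U) * Rop β v = Rop β v * (T : End3 U)) ∧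
      ∀ u, (T : End3 U) * Lop β u = sg (γ u) • (Lop β (g u) * (T : End3 U)) := by
  classical
  haveI := Fintype.ofFinite U
  have hγ0 : γ 0 = 0 := by
    have h := hγ 0 0
    simp only [add_zero, map_zero, LinearMap.zero_apply] at h
    have h2 := zmod2_add_self (γ 0)
    rw [h2] at h
    exact h
  obtain ⟨c, hc⟩ := avg_ne_zero β hnd g γ hγ0
  have hR := avg_comm_R β g γ (Lop β c) (fun v => Lop_Rop_comm β c v)
  have hL := avg_twist β g γ hγ (Lop β c)
  obtain ⟨T, hT⟩ := isUnit_of_twist β (simple_stmt β hnd) g γ _ hc hR hL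
  exact ⟨T, by rw [hT]; exact hR, by rw [hT]; exact hL⟩

theorem piHom_surjective [Finite U] (β : U →ₗ[ZMod 2] U →ₗ[ZMod 2] ZMod 2) (hnd : Nondeg β)
    (q : QuadraticForm (ZMod 2) U) (hβ : ∀ u, β u u = q u) (ρ : Representation (ZMod 2) K U)
    (hq : ∀ (k : K) (u : U), q (ρ k u) = q u) : Function.Surjective (piHom β ρ) := by
  intro k
  haveI : Module.Finite (ZMod 2) U := Module.Finite.of_finite
  let η : U →ₗ[ZMod 2] U →ₗ[ZMod 2] ZMod 2 := (β.compl₁₂ (ρ k) (ρ k)) + β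
  have hη : ∀ u v, η u v = β (ρ k u) (ρ k v) + β u v := fun u v => rfl
  have halt : ∀ u, η u u = 0 := by
    intro u
    rw [hη, hβ, hβ, hq]
    exact zmod2_add_self _
  obtain ⟨γ, hγ⟩ := exists_gamma η halt
  obtain ⟨T, hTR, hTL⟩ := exists_lift β hnd (ρ k) γ (fun u v => by rw [hγ u v, hη])
  exact ⟨⟨(T, k), ⟨hTR, fun u => ⟨sg (γ u), sg_pm _, hTL u⟩⟩⟩, rfl⟩

theorem main {K : Type*} [Group K] {U : Type*} [AddCommGroup U] [Module (ZMod 2) U]
    [Module.Finite (ZMod 2) U] (n : ℕ) (hn1 : 1 ≤ n) (hn : Module.finrank (ZMod 2) U = 2 * n)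
    (ρ : Representation (ZMod 2) K U) (hρ : Function.Injective ρ) (q : QuadraticForm (ZMod 2) U)
    (hq : ∀ (k : K) (u : U), q (ρ k u) = q u)
    (hnd : (QuadraticMap.polarBilin q).Nondegenerate) :
    ∃ (R : Type) (_ : Group R) (_ : Finite R) (Q : Subgroup R) (hN : Q.Normal) (e : R ⧸ Q ≃* K)
      (χ : ↥Q →* Multiplicative U), Cfsg.IsExtraspecial 2 ↥Q ∧ Nat.card ↥Q = 2 ^ (2 * n + 1) ∧
      Function.Surjective χ ∧ χ.ker = Subgroup.center ↥Q ∧
      (∀ (r : R) (a : ↥Q), χ ⟨r * a * r⁻¹, hN.conj_mem (a : R) a.2 r⟩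
        = Multiplicative.ofAdd (ρ (e (r : R ⧸ Q)) (Multiplicative.toAdd (χ a)))) ∧
      ∀ a : ↥Q, a * a = 1 ↔ q (Multiplicative.toAdd (χ a)) = 0 := by
  haveI : Finite U := Module.finite_of_finite (ZMod 2)
  haveI : Nontrivial U := by
    apply Module.nontrivial_of_finrank_pos (R := ZMod 2)
    rw [hn]; omega
  obtain ⟨β, hβ, hndβ⟩ := exists_beta q hnd
  have hk : KerStmt β := ker_stmt β hndβ (cent_stmt β hndβ)
  have hsurj := piHom_surjective β hndβ q hβ ρ hq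
  haveI : Finite (U →ₗ[ZMod 2] U) := Finite.of_injective (fun T => (T : U → U)) DFunLike.coe_injective
  haveI : Finite K := Finite.of_injective ρ hρ
  haveI : Finite (End3 U) :=
    Finite.of_injective (fun T : End3 U => (T : (U → ZMod 3) → (U → ZMod 3))) DFunLike.coe_injective
  haveI : Finite ↥(Rgrp β ρ) := inferInstance
  have hcardU : Nat.card U = 2 ^ (2 * n) := by
    rw [← hn, Module.natCard_eq_pow_finrank (K := ZMod 2), Nat.card_zmod]
  have hcard : Nat.card ↥(piHom β ρ).ker = 2 * Nat.card U := card_ker β hk ρ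
  refine transport n ρ q (R' := ↥(Rgrp β ρ)) (piHom β ρ).ker inferInstance
    (QuotientGroup.quotientKerEquivOfSurjective (piHom β ρ) hsurj) (chi hk ρ)
    (ker_extraspecial β hndβ hk ρ hcard) ?_ ?_ (chi_ker_eq_center β hndβ hk ρ) ?_ ?_
  · rw [hcard, hcardU, pow_succ, mul_comm]
  · intro u
    exact ⟨qelem β ρ (Multiplicative.toAdd u), chi_qelem hk ρ _⟩
  · intro r a
    exact chi_conj β hk ρ r a _
  · intro a
    rw [sq_iff β hk ρ a, hβ]

end Cfsg.Agent.Lib.Helper59.CL
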