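import Cfsg.Agent.Lib.Helper59.CL1

/-! S3084 piece CENTER: the kernel of `chi` is the centre of the kernel of `piHom`. -/

set_option autoImplicit false

namespace Cfsg.Agent.Lib.Helper59.CL

variable {U : Type*} [AddCommGroup U] [Module (ZMod 2) U]
variable {K : Type*} [Group K]

/-- if `ε • L_w` commutes with `L_u` then `β w u + β u w = 0`. -/
theorem comm_imp_polar_zero (β : U →ₗ[ZMod 2] U →ₗ[ZMod 2] ZMod 2) (w u : U) (ε : ZMod 3)
    (hε : ε = 1 ∨ ε = -1) (h : (ε • Lop β w) * Lop β u = Lop β u * (ε • Lop β w)) :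
    β w u + β u w = 0 := by
  rw [smul_mul_assoc, mul_smul_comm, Lop_comm_sign β w u, Lop_mul, smul_smul, smul_smul,
    smul_smul] at h
  have h1 := (Lop_inj β (u + w) (u + w) _ _
    (pm_mul _ _ (pm_mul _ _ hε (sg_pm _)) (sg_pm _)) (pm_mul _ _ hε (sg_pm _)) h).2
  have hne : ε ≠ 0 := by rcases hε with rfl | rfl <;> decide
  have h2 : sg (β w u + β u w) * sg (β u w) = 1 * sg (β u w) := by
    rw [one_mul]
    rw [mul_assoc] at h1
    exact mul_left_cancel₀ hne h1
  exact (sg_eq_one_iff _).mp (mul_right_cancel₀ (sg_ne_zero _) h2)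

theorem chi_ker_eq_center [Finite U] (β : U →ₗ[ZMod 2] U →ₗ[ZMod 2] ZMod 2) (hnd : Nondeg β)
    (hk : KerStmt β) (ρ : Representation (ZMod 2) K U) :
    (chi hk ρ).ker = Subgroup.center ↥(piHom β ρ).ker := by
  ext x
  obtain ⟨ε, hε, e⟩ := chi_spec hk ρ x
  rw [MonoidHom.mem_ker, Subgroup.mem_center_iff]
  constructor
  · intro h1 y
    rw [h1] at e
    have e0 : opOf β ρ x = ε • (1 : End3 U) := by
      rw [e]
      show ε • Lop β (0 : U) = ε • (1 : End3 U)
      rw [Lop_zero]
    apply opOf_inj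
    rw [opOf_mul, opOf_mul, e0, mul_smul_comm, smul_mul_assoc, mul_one, one_mul]
  · intro h1
    have hw : Multiplicative.toAdd (chi hk ρ x) = 0 := by
      apply hnd
      intro u
      rw [add_comm]
      apply comm_imp_polar_zero β _ u ε hε
      have h2 := congrArg (opOf β ρ) (h1 (qelem β ρ u))
      rw [opOf_mul, opOf_mul, opOf_qelem, e] at h2
      exact h2.symm
    have h3 : chi hk ρ x = Multiplicative.ofAdd (Multiplicative.toAdd (chi hk ρ x)) := rfl
    rw [h3, hw]
    rfl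

end Cfsg.Agent.Lib.Helper59.CL
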