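import Cfsg.Agent.Lib.Helper59.CL1

/-! S3084 piece EQSQ: `chi` is equivariant, and squares are detected by `β w w`. -/

set_option autoImplicit false

namespace Cfsg.Agent.Lib.Helper59.CL

variable {U : Type*} [AddCommGroup U] [Module (ZMod 2) U]
variable {K : Type*} [Group K]

theorem chi_conj (β : U →ₗ[ZMod 2] U →ₗ[ZMod 2] ZMod 2) (hk : KerStmt β)
    (ρ : Representation (ZMod 2) K U) (r : ↥(Rgrp β ρ)) (a : ↥(piHom β ρ).ker)
    (h : r * (a : ↥(Rgrp β ρ)) * r⁻¹ ∈ (piHom β ρ).ker) :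
    chi hk ρ ⟨r * (a : ↥(Rgrp β ρ)) * r⁻¹, h⟩
      = Multiplicative.ofAdd (ρ (piHom β ρ r) (Multiplicative.toAdd (chi hk ρ a))) := by
  obtain ⟨ε, hε, e⟩ := chi_spec hk ρ a
  obtain ⟨ε', hε', e'⟩ := opR_twist β ρ r (Multiplicative.toAdd (chi hk ρ a))
  refine chi_eq hk ρ _ _ (ε * ε') (pm_mul _ _ hε hε') ?_
  have e1 : opOf β ρ ⟨r * (a : ↥(Rgrp β ρ)) * r⁻¹, h⟩
      = opR β ρ r * opOf β ρ a * opR β ρ r⁻¹ := rfl
  rw [e1, e, mul_smul_comm, e', smul_mul_assoc, smul_mul_assoc, mul_assoc, opR_mul_inv, mul_one,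
    smul_smul]

theorem sq_iff (β : U →ₗ[ZMod 2] U →ₗ[ZMod 2] ZMod 2) (hk : KerStmt β)
    (ρ : Representation (ZMod 2) K U) (a : ↥(piHom β ρ).ker) :
    a * a = 1 ↔ β (Multiplicative.toAdd (chi hk ρ a)) (Multiplicative.toAdd (chi hk ρ a)) = 0 := by
  obtain ⟨ε, hε, e⟩ := chi_spec hk ρ a
  have e1 : opOf β ρ (a * a)
      = sg (β (Multiplicative.toAdd (chi hk ρ a)) (Multiplicative.toAdd (chi hk ρ a)))
        • (1 : End3 U) := by
    rw [opOf_mul, e, smul_mul_smul_comm, Lop_sq, smul_smul, pm_mul_self ε hε, one_mul]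
  constructor
  · intro h
    rw [h, opOf_one] at e1
    exact (sg_eq_one_iff _).mp ((smul_one_eq_one_iff _).mp e1.symm)
  · intro h
    apply opOf_inj
    rw [e1, opOf_one, h, sg_zero, one_smul]

end Cfsg.Agent.Lib.Helper59.CL
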