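import Cfsg.Agent.Lib.Helper59.CL1

/-! S3084: character sums over `U` used by pieces SIMPLE and NONVAN. -/

set_option autoImplicit false

namespace Cfsg.Agent.Lib.Helper59.CL

variable {U : Type*} [AddCommGroup U] [Module (ZMod 2) U]

theorem zmod3_eq_neg_self (S : ZMod 3) (h : S = -S) : S = 0 := by revert S; decide

theorem zmod2_eq_one_of_ne_zero (a : ZMod 2) (h : a ≠ 0) : a = 1 := by revert a; decide

theorem sum_sg_polar [Fintype U] (β : U →ₗ[ZMod 2] U →ₗ[ZMod 2] ZMod 2) (hnd : Nondeg β) (w : U)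
    (hw : w ≠ 0) : ∑ v : U, sg (β v w + β w v) = 0 := by
  have h1 : ∃ v₀, β v₀ w + β w v₀ ≠ 0 := by
    by_contra hcon
    push Not at hcon
    exact hw (hnd w hcon)
  obtain ⟨v₀, hv₀⟩ := h1
  have h2 : sg (β v₀ w + β w v₀) = -1 := by
    rw [zmod2_eq_one_of_ne_zero _ hv₀, sg_one]
  apply zmod3_eq_neg_self
  calc ∑ v : U, sg (β v w + β w v) = ∑ v : U, sg (β (v + v₀) w + β w (v + v₀)) :=
        (Equiv.sum_comp (Equiv.addRight v₀) (fun v => sg (β v w + β w v))).symm
    _ = ∑ v : U, -sg (β v w + β w v) := by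
        apply Finset.sum_congr rfl; intro v _
        have : β (v + v₀) w + β w (v + v₀) = (β v w + β w v) + (β v₀ w + β w v₀) := by
          simp only [map_add, LinearMap.add_apply]; ring
        rw [this, sg_add, h2, mul_neg_one]
    _ = -∑ v : U, sg (β v w + β w v) := Finset.sum_neg_distrib _

theorem sum_sg_polar_zero [Fintype U] (β : U →ₗ[ZMod 2] U →ₗ[ZMod 2] ZMod 2) :
    ∑ v : U, sg (β v 0 + β 0 v) = (Fintype.card U : ZMod 3) := by
  simp [sg_zero]

theorem card_U_ne_zero [Fintype U] : (Fintype.card U : ZMod 3) ≠ 0 := by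
  haveI : Module.Finite (ZMod 2) U := Module.Finite.of_finite
  have h1 : Fintype.card U = 2 ^ Module.finrank (ZMod 2) U := by
    rw [← Nat.card_eq_fintype_card, Module.natCard_eq_pow_finrank (K := ZMod 2), Nat.card_zmod]
  rw [h1, Nat.cast_pow]
  exact pow_ne_zero _ (by decide)

end Cfsg.Agent.Lib.Helper59.CL
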