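import Mathlib
import Cfsg.Agent.Lib.Helper72.JPDefs
import Cfsg.Agent.S0612

/-! Project JP (helper72, S2948/S2949), piece SEED: glue in `V ⋊ Aut V`. -/

set_option autoImplicit false

namespace Cfsg.Agent.Lib.Helper59.JP

open Cfsg.Agent.Lib.Helper72.JP Cfsg.Agent.Lib.Helper72.JM Cfsg.Agent.Lib.Helper72.JL
  Cfsg.Agent.Lib.Helper72.SC Cfsg.Agent.Lib.Helper78.Jc

open scoped commutatorElement

universe u

/-- a subgroup of order `3` is generated by each of its nontrivial elements -/
theorem seed_zpowers_eq {G : Type*} [Group G] (M : Subgroup G) (hM : Nat.card ↥M = 3) (m : G)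
    (hm : m ∈ M) (hm1 : m ≠ 1) : ∀ x ∈ M, x ∈ Subgroup.zpowers m := by
  haveI : Finite ↥M := Nat.finite_of_card_ne_zero (by rw [hM]; norm_num)
  have hle : Subgroup.zpowers m ≤ M := by
    rw [Subgroup.zpowers_le]
    exact hm
  have hm3 : m ^ 3 = 1 := by
    have h := pow_card_eq_one' (G := ↥M) (x := ⟨m, hm⟩)
    rw [hM] at h
    have h' := congrArg Subtype.val h
    simpa using h'
  have hord : orderOf m = 3 := by
    have hd : orderOf m ∣ 3 := orderOf_dvd_of_pow_eq_one hm3
    rcases (Nat.dvd_prime Nat.prime_three).1 hd with h | h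
    · exact absurd (orderOf_eq_one_iff.mp h) hm1
    · exact h
  have hcard : Nat.card ↥(Subgroup.zpowers m) = 3 := by
    rw [Nat.card_zpowers, hord]
  have heq : Subgroup.zpowers m = M := by
    apply Subgroup.eq_of_le_of_card_ge hle
    rw [hM, hcard]
  intro x hx
  rw [heq]
  exact hx

theorem seed (h1 : FfaStmt.{u}) (h2 : FfbStmt.{u}) (h3 : VabStmt.{u}) (h4 : O2Stmt.{u})
    (h5 : PsStmt.{u}) (h6 : BoStmt.{u}) (h7 : Extm3Stmt.{u}) (h8 : K3Stmt.{u}) :
    SeedStmt.{u} := by
  intro X _ _ T hset
  have : Fact (Nat.Prime 2) := ⟨Nat.prime_two⟩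
  obtain ⟨_, hcomm, hsq, _, _⟩ := h3 X T hset
  have hcomm' : ∀ a b : ↥(VT T), a * b = b * a := fun a b =>
    Subtype.ext (hcomm a.1 a.2 b.1 b.2)
  have hsq' : ∀ v : ↥(VT T), v ^ 2 = 1 := fun v => Subtype.ext (by
    show (v.1) ^ 2 = 1
    rw [sq]; exact hsq v.1 v.2)
  obtain ⟨hV, hHup, hupN, hHV, hf, hS3⟩ := h1 ↥(VT T) 2 (rhoT T).range hcomm' hsq'
  have hS1 := h2 ↥(VT T) 2 (rhoT T).range hcomm' hsq' (h5 X T hset) (h4 X T hset)
  have hfinA : Finite (MulAut ↥(VT T)) :=
    Finite.of_injective (fun (e : MulAut ↥(VT T)) => (e : ↥(VT T) → ↥(VT T)))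
      DFunLike.coe_injective
  have hfinG : Finite (Gam ↥(VT T)) :=
    Finite.of_equiv (↥(VT T) × MulAut ↥(VT T)) SemidirectProduct.equivProd.symm
  have hinj : Function.Injective (SemidirectProduct.inr : MulAut ↥(VT T) →* Gam ↥(VT T)) :=
    SemidirectProduct.inr_injective
  obtain ⟨ι, hι⟩ : ∃ ι : X →* Gam ↥(VT T),
      ι = (SemidirectProduct.inr : MulAut ↥(VT T) →* Gam ↥(VT T)).comp (rhoT T) := ⟨_, rfl⟩
  have hιap : ∀ x : X, ι x = (SemidirectProduct.inr (rhoT T x) : Gam ↥(VT T)) := by
    intro x
    rw [hι]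
    rfl
  have hιup : ∀ x : X, ι x ∈ up (rhoT T).range := by
    intro x
    rw [hιap]
    exact Subgroup.mem_map_of_mem _ ⟨x, rfl⟩
  -- maximal elementary abelian subgroups map into `H`
  have hAH : ∀ A : Subgroup X, IsMaxEA T A → up (A.map (rhoT T)) ≤ Hs 2 (rhoT T).range := by
    intro A hA
    have hbo := h6 X T hset A hA
    have hle : up (A.map (rhoT T)) ≤ up (rhoT T).range :=
      Subgroup.map_mono (Subgroup.map_le_range (rhoT T) A)
    exact le_iSup (fun A : {A : Subgroup (Gam ↥(VT T)) // A ≤ up (rhoT T).range ∧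
        Cfsg.IsBestOffenderOn 2 (Vs ↥(VT T)) A} => (A : Subgroup (Gam ↥(VT T))))
        ⟨up (A.map (rhoT T)), hle, hbo⟩
  have hAι : ∀ A : Subgroup X, ∀ a ∈ A, ι a ∈ up (A.map (rhoT T)) := by
    intro A a ha
    rw [hιap]
    exact Subgroup.mem_map_of_mem _ (Subgroup.mem_map_of_mem _ ha)
  have hJH : JT T ≤ (Hs 2 (rhoT T).range).comap ι := by
    unfold JT
    apply sSup_le
    intro A hA a ha
    rw [Subgroup.mem_comap]
    exact hAH A hA (hAι A a ha)
  refine ⟨(Hs 2 (rhoT T).range).comap ι, ⟨?_⟩, hJH, ?_⟩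
  · intro n hn g
    rw [Subgroup.mem_comap] at hn ⊢
    have hgN := hupN (hιup g)
    have h5' := (Subgroup.mem_normalizer_iff.mp hgN _).mp hn
    rw [map_mul, map_mul, map_inv]
    exact h5'
  · intro Y hCY hJY hseed x hx j hj
    rw [Subgroup.mem_comap] at hx
    -- reduce to the generators of `JT T`
    have hred : JT T ≤ Y.comap (MulAut.conj x).toMonoidHom := by
      unfold JT
      apply sSup_le
      intro A hA a' ha'
      rw [Subgroup.mem_comap]
      show x * a' * x⁻¹ ∈ Y
      have hAY : A ≤ Y := (le_sSup (show A ∈ {A : Subgroup X | IsMaxEA T A} from hA)).trans hJY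
      have hB₀H := hAH A hA
      have hbo := h6 X T hset A hA
      -- the key claim
      have hkey : ι x * ι a' * (ι x)⁻¹ ∈ up (Y.map (rhoT T)) := by
        by_cases hB₀ : up (A.map (rhoT T)) = ⊥
        · have h1' : ι a' = 1 := by
            have := hAι A a' ha'
            rw [hB₀, Subgroup.mem_bot] at this
            exact this
          rw [h1', mul_one, mul_inv_cancel]
          exact Subgroup.one_mem _
        · have hH1 : Hs 2 (rhoT T).range ≠ ⊥ := by
            intro hbot
            apply hB₀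
            rw [eq_bot_iff, ← hbot]
            exact hB₀H
          obtain ⟨k, B, hB, -, hsup⟩ := Cfsg.Agent.S0612.result (Vs ↥(VT T))
            (Hs 2 (rhoT T).range) hV hHV hf hS1 hS3 hH1 (up (A.map (rhoT T))) hB₀H hbo hB₀
          have hBi : ∀ i, B i ≤ (up (Y.map (rhoT T))).comap (MulAut.conj (ι x)).toMonoidHom := by
            intro i
            obtain ⟨hBle, hBbo, hBne, hBmin⟩ := hB i
            obtain ⟨M, hMH, hMn, hM3, hMc, b₀, hb₀, m, hm, hm1, hbm⟩ :=
              h7 (Gam ↥(VT T)) (Vs ↥(VT T)) (Hs 2 (rhoT T).range) hV hHV hf hS1 hS3 (B i)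
                (hBle.trans hB₀H) hBbo hBne hBmin
            -- `b₀ = ι a₀` with `a₀ ∈ A`
            obtain ⟨_, ⟨a₀, ha₀, rfl⟩, hb₀eq⟩ := hBle hb₀
            -- `m = ι d`
            obtain ⟨_, ⟨d, rfl⟩, hmeq⟩ := hHup (hMH hm)
            have hb₀ι : ι a₀ = b₀ := by rw [hιap]; exact hb₀eq
            have hmι : ι d = m := by rw [hιap]; exact hmeq
            have hρd1 : rhoT T d ≠ 1 := by
              intro h
              apply hm1
              rw [← hmeq, h, map_one]
            have hm3 : m ^ 3 = 1 := by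
              haveI : Finite ↥M := Nat.finite_of_card_ne_zero (by rw [hM3]; norm_num)
              have h := pow_card_eq_one' (G := ↥M) (x := ⟨m, hm⟩)
              rw [hM3] at h
              have h' := congrArg Subtype.val h
              simpa using h'
            have hρd3 : rhoT T d ^ 3 = 1 := by
              apply hinj
              rw [map_pow, map_one, hmeq, hm3]
            have hρinv : rhoT T a₀ * rhoT T d * (rhoT T a₀)⁻¹ = (rhoT T d)⁻¹ := by
              apply hinj
              rw [map_mul, map_mul, map_inv, map_inv, hb₀eq, hmeq]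
              exact hbm
            obtain ⟨k₀, hk3, hkinv, hρk1, hρkz⟩ :=
              h8 X T hset a₀ (hA.1 ha₀) (hA.2.2.1 a₀ ha₀) d hρd1 hρd3 hρinv
            -- `ι k₀ ∈ M`, nontrivial
            have hιkM : ι k₀ ∈ M := by
              obtain ⟨z, hz⟩ := Subgroup.mem_zpowers_iff.mp hρkz
              rw [hιap, ← hz, map_zpow, hmeq]
              exact Subgroup.zpow_mem _ hm z
            have hιk1 : ι k₀ ≠ 1 := by
              intro h
              apply hρk1
              apply hinj
              rw [map_one, ← hιap]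
              exact h
            have hMz := seed_zpowers_eq M hM3 (ι k₀) hιkM hιk1
            have hKS : KSeed T a₀ k₀ := by
              refine ⟨⟨A, hA, ha₀⟩, hk3, hkinv, hρk1, ?_⟩
              intro j' hj'
              have hj'H : ι j' ∈ Hs 2 (rhoT T).range := hJH hj'
              have h6' := hMz _ (hMn _ hj'H _ hιkM)
              obtain ⟨z, hz⟩ := Subgroup.mem_zpowers_iff.mp h6'
              rw [Subgroup.mem_zpowers_iff]
              refine ⟨z, ?_⟩
              apply hinj
              rw [map_zpow, map_mul, map_mul, map_inv, ← hιap, ← hιap]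
              exact hz
            have hkY : k₀ ∈ Y := hseed a₀ k₀ hKS
            have hMY : M ≤ up (Y.map (rhoT T)) := by
              intro y hy
              have h6' := hMz y hy
              have hle : Subgroup.zpowers (ι k₀) ≤ up (Y.map (rhoT T)) := by
                rw [Subgroup.zpowers_le, hιap]
                exact Subgroup.mem_map_of_mem _ (Subgroup.mem_map_of_mem _ hkY)
              exact hle h6'
            have hAup : up (A.map (rhoT T)) ≤ up (Y.map (rhoT T)) :=
              Subgroup.map_mono (Subgroup.map_mono hAY)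
            intro b hb
            rw [Subgroup.mem_comap]
            show ι x * b * (ι x)⁻¹ ∈ up (Y.map (rhoT T))
            have e : ι x * b * (ι x)⁻¹ = (ι x * b * (ι x)⁻¹ * b⁻¹) * b := by group
            rw [e]
            exact Subgroup.mul_mem _ (hMY (hMc _ hx b hb)) (hAup (hBle hb))
          have hsupB : up (A.map (rhoT T)) ≤
              (up (Y.map (rhoT T))).comap (MulAut.conj (ι x)).toMonoidHom := by
            rw [← hsup]
            exact iSup_le hBi
          have := hsupB (hAι A a' ha')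
          rw [Subgroup.mem_comap] at this
          exact this
      obtain ⟨_, ⟨y, hy, rfl⟩, hyeq⟩ := hkey
      have hρ : rhoT T y = rhoT T (x * a' * x⁻¹) := by
        apply hinj
        rw [hyeq, ← hιap, map_mul, map_mul, map_inv]
      have hker : x * a' * x⁻¹ * y⁻¹ ∈ (rhoT T).ker := by
        rw [MonoidHom.mem_ker, map_mul, map_inv, ← hρ, mul_inv_cancel]
      have e : x * a' * x⁻¹ = (x * a' * x⁻¹ * y⁻¹) * y := by group
      rw [e]
      exact Subgroup.mul_mem _ (hCY hker) hy
    have := hred hj
    rw [Subgroup.mem_comap] at this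
    exact this

end Cfsg.Agent.Lib.Helper59.JP
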