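import Mathlib
import Cfsg.Prelude.Def_RootSubgroups
import Cfsg.Prelude.Def_QuasithinSetup
import Cfsg.Agent.Lib.Helper12.RootInv
import Cfsg.Agent.Lib.Helper20.RI1
import Cfsg.Agent.Lib.Helper5.BaerSuzuki
import Cfsg.Agent.Lib.Helper55.Basic

/-! S5048 piece RS-CORE (helper59): if members of `D` in the same coset of a normal subgroup `N`
commute, then the commutators of `D` with `N` lie in `O_2(G)` (Baer–Suzuki). -/

set_option autoImplicit false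

namespace Cfsg.Agent.Lib.Helper59.RS

open Cfsg Cfsg.Agent.Lib.Helper12.RootInv Cfsg.Agent.Lib.Helper20.RI

variable {G : Type*} [Group G]

/-- two involutions (or trivial elements) whose product has order dividing 4 generate a 2-group -/
private theorem rscore_pair {y y' : G} (hy : y * y = 1) (hy' : y' * y' = 1)
    (h4 : (y * y') ^ 4 = 1) : IsPGroup 2 (Subgroup.closure ({y, y'} : Set G)) := by
  have hyinv : y⁻¹ = y := inv_eq_of_mul_eq_one_left hy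
  have hy'inv : y'⁻¹ = y' := inv_eq_of_mul_eq_one_left hy'
  have hZ : IsPGroup 2 (Subgroup.zpowers (y * y')) := by
    apply IsPGroup.of_card_dvd_pow (n := 2)
    rw [Nat.card_zpowers]; exact orderOf_dvd_of_pow_eq_one h4
  have hA : IsPGroup 2 (Subgroup.zpowers y) := by
    apply IsPGroup.of_card_dvd_pow (n := 1)
    rw [Nat.card_zpowers]
    apply orderOf_dvd_of_pow_eq_one
    rw [pow_one, pow_two]; exact hy
  have hN : Subgroup.zpowers y ≤ Subgroup.normalizer (Subgroup.zpowers (y * y') : Set G) := by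
    rw [Subgroup.zpowers_le, Subgroup.mem_normalizer_iff_map_conj_eq, MonoidHom.map_zpowers]
    have e : ((MulAut.conj y : G ≃* G) : G →* G) (y * y') = (y * y')⁻¹ := by
      simp only [MonoidHom.coe_coe, MulAut.conj_apply, mul_inv_rev, hyinv, hy'inv]
      rw [← mul_assoc y y y', hy, one_mul]
    rw [e, Subgroup.zpowers_inv]
  have h := hA.to_sup_of_normal_right' hZ hN
  apply h.to_le
  rw [Subgroup.closure_le]
  rintro x (rfl | rfl)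
  · exact Subgroup.mem_sup_left (Subgroup.mem_zpowers _)
  · have e : x = y⁻¹ * (y * x) := by group
    have hm : y⁻¹ * (y * x) ∈ Subgroup.zpowers y ⊔ Subgroup.zpowers (y * x) :=
      mul_mem (Subgroup.mem_sup_left (inv_mem (Subgroup.mem_zpowers _)))
        (Subgroup.mem_sup_right (Subgroup.mem_zpowers _))
    rw [← e] at hm
    exact hm

/-- PIECE RS-CORE: commutators of `D` with `N` lie in `O_2(G)` (Baer–Suzuki). -/
theorem comm_mem_pCore [Finite G] {D : Set G} (hD : IsRootInvolutionSet D)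
    (N : Subgroup G) [hNn : N.Normal]
    (hcomm : ∀ f₁ ∈ D, ∀ f₂ ∈ D, f₁ * f₂ ∈ N → f₁ * f₂ = f₂ * f₁)
    {d n : G} (hd : d ∈ D) (hn : n ∈ N) : d * n * d⁻¹ * n⁻¹ ∈ pCore 2 G := by
  haveI : Fact (Nat.Prime 2) := ⟨Nat.prime_two⟩
  obtain ⟨Y, hYdef⟩ : ∃ Y : Set G, Y = {y | ∃ f₁ ∈ D, ∃ f₂ ∈ D, f₁ * f₂ ∈ N ∧ y = f₁ * f₂} :=
    ⟨_, rfl⟩
  have hYmem : ∀ y, y ∈ Y ↔ ∃ f₁ ∈ D, ∃ f₂ ∈ D, f₁ * f₂ ∈ N ∧ y = f₁ * f₂ := by
    intro y; rw [hYdef]; rfl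
  -- (a) closed under conjugation
  have hYc : ∀ x ∈ Y, ∀ g : G, g * x * g⁻¹ ∈ Y := by
    intro x hx g
    obtain ⟨f₁, h₁, f₂, h₂, hN, rfl⟩ := (hYmem x).mp hx
    refine (hYmem _).mpr ⟨g * f₁ * g⁻¹, hD.conj_mem f₁ h₁ g, g * f₂ * g⁻¹, hD.conj_mem f₂ h₂ g,
      ?_, by group⟩
    have e : g * f₁ * g⁻¹ * (g * f₂ * g⁻¹) = g * (f₁ * f₂) * g⁻¹ := by group
    rw [e]; exact hNn.conj_mem _ hN g
  -- (b) elements of `Y` have square one
  have hYsq : ∀ y ∈ Y, y * y = 1 := by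
    intro y hy
    obtain ⟨f₁, h₁, f₂, h₂, hN, rfl⟩ := (hYmem y).mp hy
    exact sq_of_comm hD h₁ h₂ (hcomm f₁ h₁ f₂ h₂ hN)
  have hYN : ∀ y ∈ Y, y ∈ N := by
    intro y hy
    obtain ⟨f₁, h₁, f₂, h₂, hN, rfl⟩ := (hYmem y).mp hy
    exact hN
  -- (c) `(y y')^4 = 1`
  have hY4 : ∀ y ∈ Y, ∀ y' ∈ Y, (y * y') ^ 4 = 1 := by
    intro y hy y' hy'
    have hy'N : y' ∈ N := hYN y' hy'
    have hy'sq : y' * y' = 1 := hYsq y' hy'
    have hy'inv : y'⁻¹ = y' := inv_eq_of_mul_eq_one_left hy'sq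
    obtain ⟨f₁, h₁, f₂, h₂, hN, rfl⟩ := (hYmem y).mp hy
    -- members of `D` in the coset of `f₁` commute pairwise
    have hP : ∀ x ∈ D, ∀ x' ∈ D, x * f₁ ∈ N → x' * f₁ ∈ N → x * x' = x' * x := by
      intro x hx x' hx' hxN hx'N
      apply hcomm x hx x' hx'
      have e : x * x' = (x * f₁) * (x' * f₁)⁻¹ := by
        rw [mul_inv_rev, ri_inv hD h₁, ri_inv hD hx', mul_assoc, ← mul_assoc f₁ f₁ x',
          ri_sq hD h₁, one_mul]
      rw [e]; exact mul_mem hxN (inv_mem hx'N)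
    have hconjP : ∀ x ∈ D, x * f₁ ∈ N → y' * x * y'⁻¹ * f₁ ∈ N := by
      intro x hx hxN
      have e : y' * x * y'⁻¹ * f₁ = y' * (x * y'⁻¹ * x⁻¹) * (x * f₁) := by group
      rw [e]
      exact mul_mem (mul_mem hy'N (hNn.conj_mem _ (inv_mem hy'N) x)) hxN
    have p1 : f₁ * f₁ ∈ N := by rw [ri_sq hD h₁]; exact one_mem N
    have p2 : f₂ * f₁ ∈ N := by
      have e : f₂ * f₁ = (f₁ * f₂)⁻¹ := by rw [mul_inv_rev, ri_inv hD h₁, ri_inv hD h₂]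
      rw [e]; exact inv_mem hN
    have g1D : y' * f₁ * y'⁻¹ ∈ D := hD.conj_mem f₁ h₁ y'
    have g2D : y' * f₂ * y'⁻¹ ∈ D := hD.conj_mem f₂ h₂ y'
    have p3 : y' * f₁ * y'⁻¹ * f₁ ∈ N := hconjP f₁ h₁ p1
    have p4 : y' * f₂ * y'⁻¹ * f₁ ∈ N := hconjP f₂ h₂ p2
    have c13 : Commute f₁ (y' * f₁ * y'⁻¹) := hP f₁ h₁ _ g1D p1 p3
    have c14 : Commute f₁ (y' * f₂ * y'⁻¹) := hP f₁ h₁ _ g2D p1 p4
    have c23 : Commute f₂ (y' * f₁ * y'⁻¹) := hP f₂ h₂ _ g1D p2 p3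
    have c24 : Commute f₂ (y' * f₂ * y'⁻¹) := hP f₂ h₂ _ g2D p2 p4
    have cAB : Commute (f₁ * f₂) ((y' * f₁ * y'⁻¹) * (y' * f₂ * y'⁻¹)) :=
      (c13.mul_right c14).mul_left (c23.mul_right c24)
    have eB : (y' * f₁ * y'⁻¹) * (y' * f₂ * y'⁻¹) = y' * (f₁ * f₂) * y'⁻¹ := by group
    rw [eB] at cAB
    have hA2 : (f₁ * f₂) ^ 2 = 1 := by rw [pow_two]; exact hYsq _ hy
    have hB2 : (y' * (f₁ * f₂) * y'⁻¹) ^ 2 = 1 := by
      rw [pow_two]; exact hYsq _ (hYc _ hy y')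
    have e2 : (f₁ * f₂ * y') ^ 2 = (f₁ * f₂) * (y' * (f₁ * f₂) * y'⁻¹) := by
      rw [hy'inv, pow_two]; simp only [mul_assoc]
    have e4 : (f₁ * f₂ * y') ^ 4 = ((f₁ * f₂ * y') ^ 2) ^ 2 := by rw [← pow_mul]
    rw [e4, e2, cAB.mul_pow, hA2, hB2, one_mul]
  -- (d), (e) Baer–Suzuki
  obtain ⟨M, hMn, hMp, hYM⟩ := Cfsg.Agent.Lib.Helper5.baer_suzuki_set (p := 2) Y hYc
    (fun x hx y hy => rscore_pair (hYsq x hx) (hYsq y hy) (hY4 x hx y hy))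
  have hM : M ≤ pCore 2 G := Cfsg.Agent.Lib.Helper55.le_pCore hMn hMp
  -- (f)
  apply hM
  apply hYM
  refine (hYmem _).mpr ⟨d, hd, n * d * n⁻¹, hD.conj_mem d hd n, ?_, ?_⟩
  · have e : d * (n * d * n⁻¹) = (d * n * d⁻¹) * n⁻¹ := by
      rw [ri_inv hD hd]; simp only [mul_assoc]
    rw [e]
    exact mul_mem (hNn.conj_mem n hn d) (inv_mem hn)
  · rw [ri_inv hD hd]; simp only [mul_assoc]

end Cfsg.Agent.Lib.Helper59.RS
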