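import Mathlib
import Cfsg.Prelude.Def_RootSubgroups
import Cfsg.Prelude.Def_QuasithinSetup
import Cfsg.Agent.Lib.Helper12.RootInv
import Cfsg.Agent.Lib.Helper55.Basic

/-! S5048 piece RS-ZNE (helper59): `O_{2,Z}(G)` contains no member of an odd-adjacent pair of
root involutions. -/

set_option autoImplicit false

namespace Cfsg.Agent.Lib.Helper59.RS

open Cfsg Cfsg.Agent.Lib.Helper12.RootInv

variable {G : Type*} [Group G]

/-- PIECE RS-ZNE: `O_{2,Z}(G)` contains no member of an odd-adjacent pair. -/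
theorem not_mem_twoZCore [Finite G] {D : Set G} (hD : IsRootInvolutionSet D) {c a : G}
    (h : OddAdj D c a) : c ∉ twoZCore G := by
  intro hc
  obtain ⟨hcD, haD, hne, hodd⟩ := h
  haveI hOn : (pCore 2 G).Normal := Cfsg.Agent.Lib.Helper55.pCore_normal
  have hO2 : IsPGroup 2 (pCore 2 G) := Cfsg.Agent.Lib.Helper55.pCore_isPGroup
  have hcen : QuotientGroup.mk' (pCore 2 G) c ∈ Subgroup.center (G ⧸ pCore 2 G) := hc
  have h1 := Subgroup.mem_center_iff.mp hcen (QuotientGroup.mk' (pCore 2 G) a)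
  rw [← map_mul, ← map_mul] at h1
  have h2 : (a * c)⁻¹ * (c * a) ∈ pCore 2 G := by
    have := (QuotientGroup.eq (s := pCore 2 G) (a := a * c) (b := c * a)).mp h1
    exact this
  have hmem : (c * a) ^ 2 ∈ pCore 2 G := by
    have e : (c * a) ^ 2 = (a * c)⁻¹ * (c * a) := by
      rw [pow_two, mul_inv_rev, ri_inv hD hcD, ri_inv hD haD]
    rw [e]; exact h2
  obtain ⟨k, hk⟩ := hO2 ⟨(c * a) ^ 2, hmem⟩
  have hk' : ((c * a) ^ 2) ^ (2 ^ k) = 1 := by
    have := congrArg Subtype.val hk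
    simpa using this
  have hdvd : orderOf (c * a) ∣ 2 ^ (k + 1) := by
    apply orderOf_dvd_of_pow_eq_one
    rw [pow_succ', pow_mul]; exact hk'
  have hcop : (orderOf (c * a)).Coprime (2 ^ (k + 1)) :=
    Nat.Coprime.pow_right _ (Nat.coprime_two_right.mpr hodd)
  have h3 : orderOf (c * a) = 1 := Nat.Coprime.eq_one_of_dvd hcop hdvd
  have h4 : c * a = 1 := orderOf_eq_one_iff.mp h3
  apply hne
  have h5 : c = a⁻¹ := eq_inv_of_mul_eq_one_left h4
  rw [h5, ri_inv hD haD]

end Cfsg.Agent.Lib.Helper59.RS
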