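import Mathlib

/-!
# S5965 piece FROBCHAR (for helper96): characteristic polynomial of a `p^e`-th power in characteristic `p`.
-/

set_option autoImplicit false

namespace Cfsg.Agent.Lib.Helper59.Sf

open Polynomial Matrix

theorem charpoly_pow_char_pow {K : Type*} [Field K] (p : ℕ) [Fact p.Prime] [CharP K p] {n : ℕ}
    (M : Matrix (Fin n) (Fin n) K) (e : ℕ) :
    (M ^ p ^ e).charpoly = M.charpoly.map (iterateFrobenius K p e) := by
  have hpos : 0 < p ^ e := pow_pos (Fact.out : p.Prime).pos e
  rcases Nat.eq_zero_or_pos n with rfl | hn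
  · simp [Matrix.charpoly, Matrix.det_isEmpty]
  haveI : Nonempty (Fin n) := ⟨⟨0, hn⟩⟩
  apply expand_injective (R := K) hpos
  rw [← map_expand, map_iterateFrobenius_expand]
  unfold charpoly
  rw [AlgHom.map_det, ← coe_detMonoidHom,
    ← (detMonoidHom : Matrix (Fin n) (Fin n) K[X] →* K[X]).map_pow]
  apply congr_arg det
  refine matPolyEquiv.injective ?_
  rw [map_pow, matPolyEquiv_charmatrix, sub_pow_char_pow_of_commute, ← C_pow]
  · exact (id (matPolyEquiv_eq_X_pow_sub_C (p ^ e) M) :)
  · exact (C M).commute_X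

end Cfsg.Agent.Lib.Helper59.Sf
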