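import Mathlib

/-!
# S5965 piece FROBFIX (for helper96): a polynomial whose coefficients are fixed by `a ↦ a ^ q₀`
comes from the subfield with `q₀` elements.
-/

set_option autoImplicit false

namespace Cfsg.Agent.Lib.Helper59.Sf

open Polynomial

theorem exists_map_eq_of_coeff_pow {F : Type*} [Field F] [Fintype F] (F₀ : Subfield F) {q₀ : ℕ}
    (hF₀ : Nat.card ↥F₀ = q₀) (f : F[X]) (hf : ∀ j : ℕ, f.coeff j ^ q₀ = f.coeff j) :
    ∃ f₀ : (↥F₀)[X], f₀.map F₀.subtype = f := by
  classical
  have key : ∀ a : F, a ^ q₀ = a → a ∈ F₀ := by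
    intro a ha
    haveI : Fintype ↥F₀ := Fintype.ofFinite _
    have hq : Fintype.card ↥F₀ = q₀ := by rw [← Nat.card_eq_fintype_card]; exact hF₀
    have hq2 : 1 < q₀ := by rw [← hq]; exact Fintype.one_lt_card
    obtain ⟨g, hg⟩ : ∃ g : F[X], g = X ^ q₀ - X := ⟨_, rfl⟩
    have hg0 : g ≠ 0 := by rw [hg]; exact FiniteField.X_pow_card_sub_X_ne_zero F hq2
    have hdeg : g.natDegree = q₀ := by rw [hg]; exact FiniteField.X_pow_card_sub_X_natDegree_eq F hq2
    obtain ⟨T, hT⟩ : ∃ T : Finset F, T = Finset.univ.image (F₀.subtype) := ⟨_, rfl⟩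
    have hTc : T.card = q₀ := by
      rw [hT, Finset.card_image_of_injective _ F₀.subtype_injective, Finset.card_univ, hq]
    have hsub : T ⊆ g.roots.toFinset := by
      intro b hb
      rw [hT] at hb
      obtain ⟨c, -, rfl⟩ := Finset.mem_image.mp hb
      rw [Multiset.mem_toFinset, mem_roots hg0, hg]
      have hc : c ^ q₀ = c := by rw [← hq]; exact FiniteField.pow_card c
      have hc' : ((c : F)) ^ q₀ = (c : F) := by
        have := congrArg (F₀.subtype) hc
        simpa using this
      simp [IsRoot, hc']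
    have hcard : g.roots.toFinset.card ≤ q₀ :=
      (Multiset.toFinset_card_le _).trans ((card_roots' g).trans hdeg.le)
    have heq : T = g.roots.toFinset :=
      Finset.eq_of_subset_of_card_le hsub (by rw [hTc]; exact hcard)
    have hmem : a ∈ g.roots.toFinset := by
      rw [Multiset.mem_toFinset, mem_roots hg0, hg]
      simp [IsRoot, ha]
    rw [← heq, hT] at hmem
    obtain ⟨c, -, rfl⟩ := Finset.mem_image.mp hmem
    exact c.2
  have hl : f ∈ Polynomial.lifts F₀.subtype := by
    rw [Polynomial.lifts_iff_coeff_lifts]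
    intro n
    exact ⟨⟨f.coeff n, key _ (hf n)⟩, rfl⟩
  exact (Polynomial.mem_lifts f).mp hl

end Cfsg.Agent.Lib.Helper59.Sf
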