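import Mathlib
import Cfsg.Prelude.Def_Solvable
import Cfsg.Prelude.Def_Local
import Cfsg.Agent.Lib.Helper18.TLDefs
import Cfsg.Agent.Lib.Helper34.PLen

/-!
# S3797 piece FUSION (helper59): control of fusion of involutions in a Sylow 2-subgroup by its
normalizer, for a group of 2-length at most one with one class of involutions.
-/

set_option autoImplicit false

namespace Cfsg.Agent.Lib.Helper18.TL

open Subgroup
open scoped commutatorElement

universe u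

variable {G : Type u} [Group G]

-- piece FUSION
theorem fusion [Finite G] (hpl : Cfsg.PLengthLE 2 1 G) (S : Sylow 2 G)
    (hconj : ∀ x y : G, x ≠ 1 → x ^ 2 = 1 → y ≠ 1 → y ^ 2 = 1 → IsConj x y) :
    ∀ x ∈ (S : Subgroup G), ∀ y ∈ (S : Subgroup G), x ≠ 1 → x ^ 2 = 1 → y ≠ 1 → y ^ 2 = 1 →
      ∃ n ∈ normalizer ((S : Subgroup G) : Set G), n * x * n⁻¹ = y := by
  intro x hx y hy hx1 hx2 hy1 hy2
  haveI : Fact (Nat.Prime 2) := ⟨Nat.prime_two⟩
  obtain ⟨O, hO⟩ : ∃ O : Subgroup G, O = (Cfsg.upperPSeries 2 G 1).1 := ⟨_, rfl⟩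
  haveI hOn : O.Normal := by rw [hO]; exact (Cfsg.upperPSeries 2 G 1).2
  have hOc : (Nat.card O).Coprime 2 := by
    rw [hO]; exact Cfsg.Agent.Lib.Helper34.card_upperPSeries_one_coprime 2
  have htop : O ⊔ normalizer ((S : Subgroup G) : Set G) = ⊤ := by
    rw [hO]; exact Cfsg.Agent.Lib.Helper34.plength_one_sup_normalizer 2 hpl S
  obtain ⟨g, hg⟩ := isConj_iff.mp (hconj x y hx1 hx2 hy1 hy2)
  have hgm : g ∈ normalizer ((S : Subgroup G) : Set G) ⊔ O := by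
    rw [sup_comm, htop]; trivial
  obtain ⟨n, hn, o, ho, rfl⟩ := Subgroup.mem_sup_of_normal_right.mp hgm
  refine ⟨n, hn, ?_⟩
  -- `o x o⁻¹ = n⁻¹ y n ∈ S`
  have h1 : o * x * o⁻¹ = n⁻¹ * y * n := by
    rw [← hg]; group
  have h2 : o * x * o⁻¹ ∈ (S : Subgroup G) := by
    rw [h1]
    have hn' : n⁻¹ ∈ normalizer ((S : Subgroup G) : Set G) := inv_mem hn
    have := (mem_normalizer_iff.mp hn' y).mp hy
    simpa using this
  have h3 : o * x * o⁻¹ * x⁻¹ ∈ (S : Subgroup G) := mul_mem h2 (inv_mem hx)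
  have h4 : o * x * o⁻¹ * x⁻¹ ∈ O := by
    have : x * o⁻¹ * x⁻¹ ∈ O := hOn.conj_mem _ (inv_mem ho) x
    have h5 : o * x * o⁻¹ * x⁻¹ = o * (x * o⁻¹ * x⁻¹) := by group
    rw [h5]; exact mul_mem ho this
  have hdisj : O ⊓ (S : Subgroup G) = ⊥ := by
    have hS : IsPGroup 2 (S : Subgroup G) := S.isPGroup'
    obtain ⟨k, hk⟩ := IsPGroup.iff_card.mp hS
    apply Subgroup.inf_eq_bot_of_coprime
    rw [hk]
    exact Nat.Coprime.pow_right k hOc
  have h6 : o * x * o⁻¹ * x⁻¹ = 1 := by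
    have : o * x * o⁻¹ * x⁻¹ ∈ O ⊓ (S : Subgroup G) := ⟨h4, h3⟩
    rw [hdisj] at this
    exact Subgroup.mem_bot.mp this
  have h7 : o * x * o⁻¹ = x := by
    have := mul_inv_eq_one.mp h6
    exact this
  rw [← hg]
  calc n * x * n⁻¹ = n * (o * x * o⁻¹) * n⁻¹ := by rw [h7]
    _ = n * o * x * (n * o)⁻¹ := by group

end Cfsg.Agent.Lib.Helper18.TL
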