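import Mathlib
import Cfsg.Prelude.Def_GeometricClasses
import Cfsg.Prelude.Def_LieClassical
import Cfsg.Agent.Lib.Helper71.SUP0
import Cfsg.Agent.Lib.Helper99.F4F3
import Cfsg.Agent.Lib.Helper59.U52Defs

/-!
# Project U52 (helper59), S5796: the concrete data over the field `F4` with four elements

`C1 = c₀` is an element of order `11` of `SU_5(2)`, `Tm` an involution and `Sm` a transposition
matrix; `Pv` is the characteristic predicate of a set of `165` vectors invariant under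
`⟨c₀, Tm⟩ ≅ L_2(11)` (and under the normaliser of `⟨c₀⟩`), but not under `Sm`.
-/

set_option autoImplicit false

namespace Cfsg.Agent.Lib.Helper59.U52

open Matrix Cfsg.Geo Cfsg.Agent.Lib.Helper99.U42 Cfsg.Agent.Lib.Helper71.SUP

theorem hF4 : Fintype.card F4 = 2 ^ 2 := rfl

/-- the power `c₀ ^ 1` -/
def C1 : Matrix (Fin 5) (Fin 5) F4 :=
  !![0, 0, F4.v, 1, F4.w; 0, 0, 1, 1, 1; 0, F4.w, 0, 0, 0; F4.v, 0, 0, 0, 0; 0, 0, F4.w, 1, F4.v]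

/-- the power `c₀ ^ 2` -/
def C2 : Matrix (Fin 5) (Fin 5) F4 :=
  !![F4.v, 1, F4.v, F4.w, 1; F4.v, F4.w, F4.w, 1, F4.v; 0, 0, F4.w, F4.w, F4.w; 0, 0, F4.w, F4.v, 1; F4.v, F4.v, 1, F4.v, F4.w]

/-- the power `c₀ ^ 3` -/
def C3 : Matrix (Fin 5) (Fin 5) F4 :=
  !![1, 1, 1, F4.v, F4.v; F4.v, F4.v, 1, F4.w, 1; 1, F4.v, F4.v, F4.w, 1; F4.w, F4.v, F4.w, 1, F4.v; F4.w, F4.w, F4.w, F4.w, F4.v]

/-- the power `c₀ ^ 4` -/
def C4 : Matrix (Fin 5) (Fin 5) F4 :=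
  !![F4.w, F4.w, F4.v, F4.v, 1; 1, F4.w, F4.v, 1, 1; 1, 1, F4.w, F4.v, F4.w; F4.v, F4.v, F4.v, F4.w, F4.w; 1, F4.v, F4.w, F4.v, F4.v]

/-- the power `c₀ ^ 5` -/
def C5 : Matrix (Fin 5) (Fin 5) F4 :=
  !![F4.w, 1, 1, 1, F4.w; F4.v, 1, F4.v, F4.w, F4.v; F4.w, F4.v, 1, F4.w, F4.w; 1, 1, F4.w, F4.w, F4.v; F4.w, F4.v, 1, 1, F4.v]

/-- the power `c₀ ^ 6` -/
def C6 : Matrix (Fin 5) (Fin 5) F4 :=
  !![F4.v, F4.w, F4.v, 1, F4.v; 1, 1, F4.w, 1, F4.w; 1, F4.w, 1, F4.v, 1; 1, F4.v, F4.v, F4.v, 1; F4.v, F4.w, F4.v, F4.w, F4.w]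

/-- the power `c₀ ^ 7` -/
def C7 : Matrix (Fin 5) (Fin 5) F4 :=
  !![F4.v, 1, 1, F4.w, 1; F4.v, F4.v, 1, F4.w, F4.w; F4.w, F4.w, F4.v, F4.w, F4.v; F4.w, 1, F4.w, F4.v, F4.w; 1, 1, F4.v, F4.v, F4.w]

/-- the power `c₀ ^ 8` -/
def C8 : Matrix (Fin 5) (Fin 5) F4 :=
  !![1, F4.w, 1, F4.v, F4.v; 1, F4.w, F4.w, F4.w, F4.v; 1, 1, F4.w, F4.v, F4.v; F4.w, F4.v, F4.v, 1, F4.v; F4.w, 1, 1, F4.w, F4.w]

/-- the power `c₀ ^ 9` -/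
def C9 : Matrix (Fin 5) (Fin 5) F4 :=
  !![F4.w, F4.w, 0, 0, F4.w; 1, F4.v, 0, 0, F4.w; F4.w, F4.v, F4.v, F4.v, 1; F4.v, 1, F4.v, F4.w, F4.w; 1, F4.w, F4.v, 1, F4.v]

/-- the power `c₀ ^ 10` -/
def C10 : Matrix (Fin 5) (Fin 5) F4 :=
  !![0, 0, 0, F4.w, 0; 0, 0, F4.v, 0, 0; F4.w, 1, 0, 0, F4.v; 1, 1, 0, 0, 1; F4.v, 1, 0, 0, F4.w]

/-- the involution `t` -/
def Tm : Matrix (Fin 5) (Fin 5) F4 :=
  !![0, 0, 0, F4.w, 0; 0, 0, F4.w, 0, 0; 0, F4.v, 0, 0, 0; F4.v, 0, 0, 0, 0; 0, 0, 0, 0, 1]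

/-- the transposition `s₁` -/
def Sm : Matrix (Fin 5) (Fin 5) F4 :=
  !![1, 0, 0, 0, 0; 0, 0, 0, 1, 0; 0, 0, 1, 0, 0; 0, 1, 0, 0, 0; 0, 0, 0, 0, 1]

theorem C1_mul : C1 * C1 = C2 := by decide +kernel
theorem C2_mul : C2 * C1 = C3 := by decide +kernel
theorem C3_mul : C3 * C1 = C4 := by decide +kernel
theorem C4_mul : C4 * C1 = C5 := by decide +kernel
theorem C5_mul : C5 * C1 = C6 := by decide +kernel
theorem C6_mul : C6 * C1 = C7 := by decide +kernel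
theorem C7_mul : C7 * C1 = C8 := by decide +kernel
theorem C8_mul : C8 * C1 = C9 := by decide +kernel
theorem C9_mul : C9 * C1 = C10 := by decide +kernel
theorem C10_mul : C10 * C1 = 1 := by decide +kernel
theorem C1_mul_C10 : C1 * C10 = 1 := by decide +kernel
theorem Tm_mul : Tm * Tm = 1 := by decide +kernel
theorem Sm_mul : Sm * Sm = 1 := by decide +kernel

theorem C1_adj : adj 2 C1 * C1 = 1 := by decide +kernel
theorem Tm_adj : adj 2 Tm * Tm = 1 := by decide +kernel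
theorem Sm_adj : adj 2 Sm * Sm = 1 := by decide +kernel
theorem Tm_ncomm : Tm * C1 * Tm * C1 ≠ C1 * (Tm * C1 * Tm) := by decide +kernel
theorem C1_ne_one : C1 ≠ 1 := by decide +kernel

/-- the powers of `c₀`, indexed by residues modulo `11` -/
def Cmat : ℕ → Matrix (Fin 5) (Fin 5) F4
  | 1 => C1
  | 2 => C2
  | 3 => C3
  | 4 => C4
  | 5 => C5
  | 6 => C6
  | 7 => C7
  | 8 => C8
  | 9 => C9
  | 10 => C10
  | _ => 1

theorem C1_pow : ∀ j : ℕ, j < 11 → C1 ^ j = Cmat j := by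
  have h1 : C1 ^ 1 = C1 := pow_one _
  have h2 : C1 ^ 2 = C2 := by rw [pow_succ, h1, C1_mul]
  have h3 : C1 ^ 3 = C3 := by rw [pow_succ, h2, C2_mul]
  have h4 : C1 ^ 4 = C4 := by rw [pow_succ, h3, C3_mul]
  have h5 : C1 ^ 5 = C5 := by rw [pow_succ, h4, C4_mul]
  have h6 : C1 ^ 6 = C6 := by rw [pow_succ, h5, C5_mul]
  have h7 : C1 ^ 7 = C7 := by rw [pow_succ, h6, C6_mul]
  have h8 : C1 ^ 8 = C8 := by rw [pow_succ, h7, C7_mul]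
  have h9 : C1 ^ 9 = C9 := by rw [pow_succ, h8, C8_mul]
  have h10 : C1 ^ 10 = C10 := by rw [pow_succ, h9, C9_mul]
  intro j hj
  interval_cases j
  · exact pow_zero _
  · exact h1
  · exact h2
  · exact h3
  · exact h4
  · exact h5
  · exact h6
  · exact h7
  · exact h8
  · exact h9
  · exact h10

theorem C1_pow11 : C1 ^ 11 = 1 := by
  rw [pow_succ, C1_pow 10 (by norm_num)]
  exact C10_mul

theorem C1_pow_mod (n : ℕ) : C1 ^ n = Cmat (n % 11) := by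
  rw [pow_eq_pow_mod n C1_pow11]
  exact C1_pow _ (Nat.mod_lt _ (by norm_num))

theorem trace_Cmat : ∀ j : ℕ, j < 11 → (Cmat j).trace = C1.trace →
    j = 1 ∨ j = 3 ∨ j = 4 ∨ j = 5 ∨ j = 9 := by decide +kernel

/-- membership in the set of the five cyclic rotations of `(0, 1, ω, ω, ω)` -/
def tmem : F4 → F4 → F4 → F4 → F4 → Bool
  | .o, .i, .w, .w, .w => true
  | .i, .w, .w, .w, .o => true
  | .w, .w, .w, .o, .i => true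
  | .w, .w, .o, .i, .w => true
  | .w, .o, .i, .w, .w => true
  | _, _, _, _, _ => false

theorem tmem_rot : ∀ a b c d e : F4, tmem b c d e a = tmem a b c d e := by decide

/-- `f (c₀ ^ 1 x) x` in coordinates -/
def au1 (x0 x1 x2 x3 x4 : F4) : F4 :=
  (0 * x0 + 0 * x1 + F4.v * x2 + 1 * x3 + F4.w * x4) * x0 ^ 2 +
    (0 * x0 + 0 * x1 + 1 * x2 + 1 * x3 + 1 * x4) * x1 ^ 2 +
    (0 * x0 + F4.w * x1 + 0 * x2 + 0 * x3 + 0 * x4) * x2 ^ 2 +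
    (F4.v * x0 + 0 * x1 + 0 * x2 + 0 * x3 + 0 * x4) * x3 ^ 2 +
    (0 * x0 + 0 * x1 + F4.w * x2 + 1 * x3 + F4.v * x4) * x4 ^ 2

/-- `f (c₀ ^ 3 x) x` in coordinates -/
def au3 (x0 x1 x2 x3 x4 : F4) : F4 :=
  (1 * x0 + 1 * x1 + 1 * x2 + F4.v * x3 + F4.v * x4) * x0 ^ 2 +
    (F4.v * x0 + F4.v * x1 + 1 * x2 + F4.w * x3 + 1 * x4) * x1 ^ 2 +
    (1 * x0 + F4.v * x1 + F4.v * x2 + F4.w * x3 + 1 * x4) * x2 ^ 2 +
    (F4.w * x0 + F4.v * x1 + F4.w * x2 + 1 * x3 + F4.v * x4) * x3 ^ 2 +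
    (F4.w * x0 + F4.w * x1 + F4.w * x2 + F4.w * x3 + F4.v * x4) * x4 ^ 2

/-- `f (c₀ ^ 9 x) x` in coordinates -/
def au9 (x0 x1 x2 x3 x4 : F4) : F4 :=
  (F4.w * x0 + F4.w * x1 + 0 * x2 + 0 * x3 + F4.w * x4) * x0 ^ 2 +
    (1 * x0 + F4.v * x1 + 0 * x2 + 0 * x3 + F4.w * x4) * x1 ^ 2 +
    (F4.w * x0 + F4.v * x1 + F4.v * x2 + F4.v * x3 + 1 * x4) * x2 ^ 2 +
    (F4.v * x0 + 1 * x1 + F4.v * x2 + F4.w * x3 + F4.w * x4) * x3 ^ 2 +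
    (1 * x0 + F4.w * x1 + F4.v * x2 + 1 * x3 + F4.v * x4) * x4 ^ 2

/-- `f (c₀ ^ 5 x) x` in coordinates -/
def au5 (x0 x1 x2 x3 x4 : F4) : F4 :=
  (F4.w * x0 + 1 * x1 + 1 * x2 + 1 * x3 + F4.w * x4) * x0 ^ 2 +
    (F4.v * x0 + 1 * x1 + F4.v * x2 + F4.w * x3 + F4.v * x4) * x1 ^ 2 +
    (F4.w * x0 + F4.v * x1 + 1 * x2 + F4.w * x3 + F4.w * x4) * x2 ^ 2 +
    (1 * x0 + 1 * x1 + F4.w * x2 + F4.w * x3 + F4.v * x4) * x3 ^ 2 +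
    (F4.w * x0 + F4.v * x1 + 1 * x2 + 1 * x3 + F4.v * x4) * x4 ^ 2

/-- `f (c₀ ^ 4 x) x` in coordinates -/
def au4 (x0 x1 x2 x3 x4 : F4) : F4 :=
  (F4.w * x0 + F4.w * x1 + F4.v * x2 + F4.v * x3 + 1 * x4) * x0 ^ 2 +
    (1 * x0 + F4.w * x1 + F4.v * x2 + 1 * x3 + 1 * x4) * x1 ^ 2 +
    (1 * x0 + 1 * x1 + F4.w * x2 + F4.v * x3 + F4.w * x4) * x2 ^ 2 +
    (F4.v * x0 + F4.v * x1 + F4.v * x2 + F4.w * x3 + F4.w * x4) * x3 ^ 2 +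
    (1 * x0 + F4.v * x1 + F4.w * x2 + F4.v * x3 + F4.v * x4) * x4 ^ 2

/-- the form values `f (c₀ ^ i v) v` -/
def A (i : ℕ) (v : Fin 5 → F4) : F4 := Cfsg.hermForm 5 F4 2 (Cmat i *ᵥ v) v

theorem A1_eq (v : Fin 5 → F4) : A 1 v = au1 (v 0) (v 1) (v 2) (v 3) (v 4) := by
  simp only [A, Cmat, Cfsg.hermForm, Matrix.mulVec, dotProduct, Fin.sum_univ_five, C1, au1]
  simp
  try ring

theorem A3_eq (v : Fin 5 → F4) : A 3 v = au3 (v 0) (v 1) (v 2) (v 3) (v 4) := by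
  simp only [A, Cmat, Cfsg.hermForm, Matrix.mulVec, dotProduct, Fin.sum_univ_five, C3, au3]
  simp
  try ring

theorem A9_eq (v : Fin 5 → F4) : A 9 v = au9 (v 0) (v 1) (v 2) (v 3) (v 4) := by
  simp only [A, Cmat, Cfsg.hermForm, Matrix.mulVec, dotProduct, Fin.sum_univ_five, C9, au9]
  simp
  try ring

theorem A5_eq (v : Fin 5 → F4) : A 5 v = au5 (v 0) (v 1) (v 2) (v 3) (v 4) := by
  simp only [A, Cmat, Cfsg.hermForm, Matrix.mulVec, dotProduct, Fin.sum_univ_five, C5, au5]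
  simp
  try ring

theorem A4_eq (v : Fin 5 → F4) : A 4 v = au4 (v 0) (v 1) (v 2) (v 3) (v 4) := by
  simp only [A, Cmat, Cfsg.hermForm, Matrix.mulVec, dotProduct, Fin.sum_univ_five, C4, au4]
  simp
  try ring

/-- the predicate in coordinates -/
def Pr (x0 x1 x2 x3 x4 : F4) : Bool :=
  tmem (au1 x0 x1 x2 x3 x4) (au3 x0 x1 x2 x3 x4) (au9 x0 x1 x2 x3 x4) (au5 x0 x1 x2 x3 x4)
    (au4 x0 x1 x2 x3 x4)

/-- the invariant set of vectors -/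
def Pv (v : Fin 5 → F4) : Prop := Pr (v 0) (v 1) (v 2) (v 3) (v 4) = true

theorem Pv_iff (v : Fin 5 → F4) :
    Pv v ↔ tmem (A 1 v) (A 3 v) (A 9 v) (A 5 v) (A 4 v) = true := by
  rw [A1_eq, A3_eq, A9_eq, A5_eq, A4_eq]
  rfl

theorem Pr_t : ∀ x0 x1 x2 x3 x4 : F4, Pr x0 x1 x2 x3 x4 = true →
    Pr (F4.w * x3) (F4.w * x2) (F4.v * x1) (F4.v * x0) x4 = true := by decide +kernel

theorem Tm_mulVec (v : Fin 5 → F4) :
    Tm *ᵥ v = ![F4.w * v 3, F4.w * v 2, F4.v * v 1, F4.v * v 0, v 4] := by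
  ext i
  fin_cases i <;> simp [Tm, Matrix.mulVec, dotProduct, Fin.sum_univ_five]

theorem Pv_Tm (v : Fin 5 → F4) (h : Pv v) : Pv (Tm *ᵥ v) := by
  rw [Tm_mulVec]
  exact Pr_t _ _ _ _ _ h

theorem Pv_e3 : Pv ![0, 0, 0, 1, 0] := by
  unfold Pv
  decide +kernel

theorem Sm_e3 : Sm *ᵥ ![0, 0, 0, 1, 0] = ![0, 1, 0, 0, 0] := by decide +kernel

theorem not_Pv_e1 : ¬ Pv ![0, 1, 0, 0, 0] := by
  unfold Pv
  decide +kernel

/-- `c₀` as an element of `GL` -/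
def c0G : GL (Fin 5) F4 := ⟨C1, C10, C1_mul_C10, C10_mul⟩

theorem c0G_val : (c0G : Matrix (Fin 5) (Fin 5) F4) = C1 := rfl

theorem c0G_pow_val (n : ℕ) :
    ((c0G ^ n : GL (Fin 5) F4) : Matrix (Fin 5) (Fin 5) F4) = Cmat (n % 11) := by
  rw [Units.val_pow_eq_pow_val]
  exact C1_pow_mod n

theorem c0G_pow11 : c0G ^ 11 = 1 := by
  apply Units.ext
  rw [c0G_pow_val]
  rfl

end Cfsg.Agent.Lib.Helper59.U52
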