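import Mathlib
import Cfsg.Prelude.Def_GeometricClasses
import Cfsg.Prelude.Def_LieClassical
import Cfsg.Agent.Lib.Helper71.SUP0
import Cfsg.Agent.Lib.Helper99.F4F3
import Cfsg.Agent.Lib.Helper59.U52Defs
import Cfsg.Agent.Lib.Helper59.U52Conc

/-!
# Project U52 (helper59), S5796: the concrete claim over `F4`, modulo the normaliser lemma
-/

set_option autoImplicit false

namespace Cfsg.Agent.Lib.Helper59.U52

open Matrix Cfsg.Geo Cfsg.Agent.Lib.Helper99.U42 Cfsg.Agent.Lib.Helper71.SUP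

theorem mem_S_of (g : GL (Fin 5) F4)
    (h1 : adj 2 (g : Matrix (Fin 5) (Fin 5) F4) * (g : Matrix (Fin 5) (Fin 5) F4) = 1)
    (h2 : (g : Matrix (Fin 5) (Fin 5) F4).det = 1) :
    g ∈ Cfsg.GU 5 F4 2 ⊓ specialLinear (Fin 5) F4 :=
  Subgroup.mem_inf.mpr ⟨(mem_GU_iff_adj hF4 g).mpr h1,
    (Cfsg.Agent.Lib.Helper93.mem_sl_iff g).mpr h2⟩

/-- `t` as an element of `GL` -/
def tG : GL (Fin 5) F4 := ⟨Tm, Tm, Tm_mul, Tm_mul⟩

/-- `s₁` as an element of `GL` -/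
def sG : GL (Fin 5) F4 := ⟨Sm, Sm, Sm_mul, Sm_mul⟩

theorem det_C1 : C1.det = 1 := by
  have h : C1.det ^ 11 = 1 := by rw [← Matrix.det_pow, C1_pow11, Matrix.det_one]
  exact (by decide : ∀ x : F4, x ^ 11 = 1 → x = 1) _ h

theorem det_Tm : Tm.det = 1 := by
  have h : Tm.det * Tm.det = 1 := by rw [← Matrix.det_mul, Tm_mul, Matrix.det_one]
  exact (by decide : ∀ x : F4, x * x = 1 → x = 1) _ h

theorem det_Sm : Sm.det = 1 := by
  have h : Sm.det * Sm.det = 1 := by rw [← Matrix.det_mul, Sm_mul, Matrix.det_one]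
  exact (by decide : ∀ x : F4, x * x = 1 → x = 1) _ h

theorem c0G_mem : c0G ∈ Cfsg.GU 5 F4 2 ⊓ specialLinear (Fin 5) F4 :=
  mem_S_of c0G C1_adj det_C1

theorem tG_mem : tG ∈ Cfsg.GU 5 F4 2 ⊓ specialLinear (Fin 5) F4 :=
  mem_S_of tG Tm_adj det_Tm

theorem sG_mem : sG ∈ Cfsg.GU 5 F4 2 ⊓ specialLinear (Fin 5) F4 :=
  mem_S_of sG Sm_adj det_Sm

theorem c0G_order : orderOf c0G = 11 := by
  haveI : Fact (Nat.Prime 11) := ⟨by norm_num⟩
  refine orderOf_eq_prime c0G_pow11 ?_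
  intro h
  exact C1_ne_one (congrArg Units.val h)

/-- the stabiliser of the invariant set of vectors -/
def M0 : Subgroup (GL (Fin 5) F4) where
  carrier := {g | g ∈ Cfsg.GU 5 F4 2 ⊓ specialLinear (Fin 5) F4 ∧
    ∀ v, Pv ((g : Matrix (Fin 5) (Fin 5) F4) *ᵥ v) ↔ Pv v}
  mul_mem' := by
    rintro a b ⟨ha, ha'⟩ ⟨hb, hb'⟩
    refine ⟨Subgroup.mul_mem _ ha hb, fun v => ?_⟩
    rw [Units.val_mul, ← Matrix.mulVec_mulVec, ha', hb']
  one_mem' := ⟨Subgroup.one_mem _, fun v => by rw [Units.val_one, Matrix.one_mulVec]⟩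
  inv_mem' := by
    rintro a ⟨ha, ha'⟩
    refine ⟨Subgroup.inv_mem _ ha, fun v => ?_⟩
    have h := ha' (((a⁻¹ : GL (Fin 5) F4) : Matrix (Fin 5) (Fin 5) F4) *ᵥ v)
    rw [Matrix.mulVec_mulVec, ← Units.val_mul, mul_inv_cancel, Units.val_one,
      Matrix.one_mulVec] at h
    exact h.symm

/-- the concrete claim over `F4`, from the normaliser lemma -/
theorem CC_F4_of
    (hnrm : ∀ g : GL (Fin 5) F4, g ∈ Cfsg.GU 5 F4 2 ⊓ specialLinear (Fin 5) F4 →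
      g * c0G * g⁻¹ ∈ Subgroup.zpowers c0G →
      ∀ v : Fin 5 → F4, Pv ((g : Matrix (Fin 5) (Fin 5) F4) *ᵥ v) ↔ Pv v) : CC F4 := by
  refine ⟨c0G, M0, c0G_mem, c0G_order, fun g hg => hg.1, ?_,
    fun g hg h => ⟨hg, hnrm g hg h⟩, tG, ⟨tG_mem, ?_⟩, ?_⟩
  · intro h
    have hs : sG ∈ M0 := by
      rw [h]
      exact sG_mem
    have h2 := (hs.2 ![0, 0, 0, 1, 0]).mpr Pv_e3
    have e : ((sG : GL (Fin 5) F4) : Matrix (Fin 5) (Fin 5) F4) = Sm := rfl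
    rw [e, Sm_e3] at h2
    exact not_Pv_e1 h2
  · intro v
    have e : ((tG : GL (Fin 5) F4) : Matrix (Fin 5) (Fin 5) F4) = Tm := rfl
    rw [e]
    constructor
    · intro h
      have h2 := Pv_Tm _ h
      rwa [Matrix.mulVec_mulVec, Tm_mul, Matrix.one_mulVec] at h2
    · exact Pv_Tm v
  · intro h
    obtain ⟨k, hk⟩ := Subgroup.mem_zpowers_iff.mp h
    have hcomm : (tG * c0G * tG⁻¹) * c0G = c0G * (tG * c0G * tG⁻¹) := by
      rw [← hk]
      exact ((Commute.refl c0G).zpow_left k).eq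
    have h2 := congrArg Units.val hcomm
    exact Tm_ncomm h2

end Cfsg.Agent.Lib.Helper59.U52
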