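import Mathlib
import Cfsg.Prelude.Def_GeometricClasses
import Cfsg.Prelude.Def_LieClassical
import Cfsg.Agent.Lib.Helper59.U52Defs
import Cfsg.Agent.Lib.Helper83.U52SYL

/-!
# Project U52 (helper59), S5796: piece FIN

From the concrete claim `CC F`, Sylow conjugacy and an element `c` of order `11` of
`S = GU_5(2) ⊓ SL_5(4)` whose cyclic group is normalised by `N(K)`: the group `N(K) ⊓ S` is not
maximal in `S`.
-/

set_option autoImplicit false

namespace Cfsg.Agent.Lib.Helper59.U52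

open Matrix Cfsg.Geo

private theorem fin_norm {G : Type*} [Group G] (c g : G)
    (h : g * c * g⁻¹ ∈ Subgroup.zpowers c) (x : G) (hx : x ∈ Subgroup.zpowers c) :
    g * x * g⁻¹ ∈ Subgroup.zpowers c := by
  obtain ⟨k, rfl⟩ := Subgroup.mem_zpowers_iff.mp hx
  have e : g * c ^ k * g⁻¹ = (g * c * g⁻¹) ^ k := (conj_zpow).symm
  rw [e]
  exact Subgroup.zpow_mem _ h k

/-- FIN -/
theorem lemX_of {F : Type*} [Field F] [Fintype F] (hF : Fintype.card F = 2 ^ 2) (hcc : CC F)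
    (K : Subalgebra F (Matrix (Fin 5) (Fin 5) F))
    (habs : ∃ c : GL (Fin 5) F, c ∈ Cfsg.GU 5 F 2 ⊓ specialLinear (Fin 5) F ∧ orderOf c = 11 ∧
      ∀ g ∈ subalgebraNormalizer K, g * c * g⁻¹ ∈ Subgroup.zpowers c) :
    ¬ IsMaximalIn (Cfsg.GU 5 F 2 ⊓ specialLinear (Fin 5) F)
      (subalgebraNormalizer K ⊓ (Cfsg.GU 5 F 2 ⊓ specialLinear (Fin 5) F)) := by
  intro hmax
  obtain ⟨c, hcS, hco, hcN⟩ := habs
  obtain ⟨c₀, M₀, hc₀S, hc₀o, hM₀S, hM₀ne, hM₀N, t, htM, htN⟩ := hcc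
  have hF4 : Fintype.card F = 4 := by rw [hF]; norm_num
  obtain ⟨S, hS⟩ : ∃ S : Subgroup (GL (Fin 5) F),
      S = Cfsg.GU 5 F 2 ⊓ specialLinear (Fin 5) F := ⟨_, rfl⟩
  rw [← hS] at hmax hcS hc₀S hM₀S hM₀ne hM₀N
  obtain ⟨s, hsS, hs⟩ := syl hF4 S c c₀ hcS hc₀S hco hc₀o
  obtain ⟨M, hM⟩ : ∃ M : Subgroup (GL (Fin 5) F), M = M₀.map (MulAut.conj s).toMonoidHom :=
    ⟨_, rfl⟩
  have memM : ∀ x, x ∈ M ↔ s⁻¹ * x * s ∈ M₀ := by
    intro x
    rw [hM, Subgroup.mem_map]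
    constructor
    · rintro ⟨y, hy, rfl⟩
      have e : s⁻¹ * ((MulAut.conj s).toMonoidHom y) * s = y := by
        simp [MulAut.conj_apply, mul_assoc]
      rw [e]
      exact hy
    · intro h
      refine ⟨s⁻¹ * x * s, h, ?_⟩
      simp [MulAut.conj_apply, mul_assoc]
  have h1 : s * c₀ * s⁻¹ ∈ Subgroup.zpowers c := by
    rw [hs]
    have e : s⁻¹ * (s * c₀ * s⁻¹) * s = c₀ := by group
    rw [e]
    exact Subgroup.mem_zpowers c₀
  have hHM : subalgebraNormalizer K ⊓ S ≤ M := by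
    intro g hg
    rw [memM]
    have hgN := hg.1
    have hgS := hg.2
    apply hM₀N _ (S.mul_mem (S.mul_mem (S.inv_mem hsS) hgS) hsS)
    have h2 : g * (s * c₀ * s⁻¹) * g⁻¹ ∈ Subgroup.zpowers c :=
      fin_norm c g (hcN g hgN) _ h1
    have h3 := (hs _).mp h2
    have e : s⁻¹ * g * s * c₀ * (s⁻¹ * g * s)⁻¹ = s⁻¹ * (g * (s * c₀ * s⁻¹) * g⁻¹) * s := by
      group
    rw [e]
    exact h3
  have hMS : M ≤ S := by
    intro x hx
    rw [memM] at hx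
    have h2 := hM₀S hx
    have e : x = s * (s⁻¹ * x * s) * s⁻¹ := by group
    rw [e]
    exact S.mul_mem (S.mul_mem hsS h2) (S.inv_mem hsS)
  rcases hmax.2 M hHM hMS with h | h
  · have ht : s * t * s⁻¹ ∈ M := by
      rw [memM]
      have e : s⁻¹ * (s * t * s⁻¹) * s = t := by group
      rw [e]
      exact htM
    rw [h] at ht
    have h2 : s * t * s⁻¹ * (s * c₀ * s⁻¹) * (s * t * s⁻¹)⁻¹ ∈ Subgroup.zpowers c :=
      fin_norm c _ (hcN _ ht.1) _ h1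
    have h3 := (hs _).mp h2
    have e : s⁻¹ * (s * t * s⁻¹ * (s * c₀ * s⁻¹) * (s * t * s⁻¹)⁻¹) * s = t * c₀ * t⁻¹ := by
      group
    rw [e] at h3
    exact htN h3
  · apply hM₀ne
    apply le_antisymm hM₀S
    intro x hx
    have h2 : s * x * s⁻¹ ∈ M := by
      rw [h]
      exact S.mul_mem (S.mul_mem hsS hx) (S.inv_mem hsS)
    rw [memM] at h2
    have e : s⁻¹ * (s * x * s⁻¹) * s = x := by group
    rw [e] at h2
    exact h2

end Cfsg.Agent.Lib.Helper59.U52
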