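import Mathlib
import Cfsg.Prelude.Def_GeometricClasses
import Cfsg.Prelude.Def_LieClassical
import Cfsg.Agent.Lib.Helper59.U52Defs
import Cfsg.Agent.Lib.Helper59.U52Conc
import Cfsg.Agent.Lib.Helper59.U52CC
import Cfsg.Agent.Lib.Helper59.U52FIN
import Cfsg.Agent.Lib.Helper59.U52TRSQ
import Cfsg.Agent.Lib.Helper12.U52TR
import Cfsg.Agent.Lib.Helper28.U52KF
import Cfsg.Agent.Lib.Helper54.U52ABSCCore
import Cfsg.Agent.Lib.Helper80.U52NRM

/-!
# Project U52 (helper59), S5796: Lemma X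

Over the field with four elements the normaliser in `SU_5(2)` of a degree-`5` field subalgebra
of the matrix algebra (the group `11 : 5`) is not maximal in `SU_5(2)` (it lies in `L_2(11)`).
-/

set_option autoImplicit false

namespace Cfsg.Agent.Lib.Helper59.U52

open Matrix Cfsg.Geo Cfsg.Agent.Lib.Helper99.U42

/-- Lemma X -/
theorem lemX {F : Type*} [Field F] [Fintype F] (hF : Fintype.card F = 2 ^ 2)
    (K : Subalgebra F (Matrix (Fin 5) (Fin 5) F)) (hK : IsFieldSubalgebra 5 K)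
    (hadj : IsAdjointClosedFor (Cfsg.hermForm 5 F 2) K) :
    ¬ IsMaximalIn (Cfsg.GU 5 F 2 ⊓ specialLinear (Fin 5) F)
      (subalgebraNormalizer K ⊓ (Cfsg.GU 5 F 2 ⊓ specialLinear (Fin 5) F)) := by
  have hF4 : Fintype.card F = 4 := by rw [hF]; norm_num
  exact lemX_of hF (CC_transfer hF4 F4.card (CC_F4_of nrm)) K
    (absC_core hF K hK hadj (fun y h11 hs => trace_eta_h59 hF4 y h11 hs) (exists_y hF4 K hK)
      (fun y hyK h11 h1 x hxK hx => K_roots11 K hK y hyK h11 h1 x hxK hx)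
      (fun a b ha hb hab => K_mul_eq_zero5 K hK ha hb hab))

end Cfsg.Agent.Lib.Helper59.U52
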