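import Mathlib

/-!
# S5982 piece UF-INVCHAR (project of helper96)

`charpoly_inv_sym`: a matrix whose characteristic polynomial is a product of linear factors
`X - ω^(r-c) ω^j` with multiplicities symmetric about `c` has the same characteristic polynomial
as its inverse.
-/

set_option autoImplicit false

namespace Cfsg.Agent.Lib.Helper59.Uf

open Polynomial Matrix

theorem invchar_reverse_pow {K : Type*} [Field K] (f : K[X]) (k : ℕ) :
    (f ^ k).reverse = f.reverse ^ k := by
  induction k with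
  | zero => rw [pow_zero, pow_zero, ← C_1, reverse_C]
  | succ k ih => rw [pow_succ, pow_succ, reverse_mul_of_domain, ih]

theorem invchar_reverse_prod {K : Type*} [Field K] {ι : Type*} (s : Finset ι) (f : ι → K[X]) :
    (∏ i ∈ s, f i).reverse = ∏ i ∈ s, (f i).reverse := by
  classical
  induction s using Finset.induction_on with
  | empty => rw [Finset.prod_empty, Finset.prod_empty, ← C_1, reverse_C]
  | insert a s ha ih =>
    rw [Finset.prod_insert ha, Finset.prod_insert ha, reverse_mul_of_domain, ih]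

theorem invchar_reverse_linear {K : Type*} [Field K] (a : K) :
    (X - C a : K[X]).reverse = 1 - C a * X := by
  have hX : (X : K[X]).reverse = 1 := by
    have h1 := reverse_mul_X (1 : K[X])
    rw [one_mul] at h1
    rw [h1, ← C_1, reverse_C]
  rw [sub_eq_add_neg, ← C_neg, reverse_add_C, natDegree_X, pow_one, hX, C_neg]
  ring

theorem invchar_mod_invol (r c j : ℕ) (hr : 0 < r) (hj : j < r) :
    (2 * c + r - (2 * c + r - j) % r) % r = j := by
  have hdm := Nat.div_add_mod (2 * c + r - j) r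
  have hlt := Nat.mod_lt (2 * c + r - j) hr
  obtain ⟨t, ht⟩ : ∃ t, t = (2 * c + r - j) % r := ⟨_, rfl⟩
  obtain ⟨d, hd⟩ : ∃ d, d = (2 * c + r - j) / r := ⟨_, rfl⟩
  rw [← ht, ← hd] at hdm
  rw [← ht] at hlt
  rw [← ht]
  obtain ⟨e, he⟩ : ∃ e, e = r * d := ⟨_, rfl⟩
  rw [← he] at hdm
  have h1 : 2 * c + r - t = j + r * d := by
    rw [← he]
    omega
  rw [h1, Nat.add_mul_mod_self_left, Nat.mod_eq_of_lt hj]

theorem charpoly_inv_sym {K : Type*} [Field K] {n : ℕ} (M : Matrix (Fin n) (Fin n) K) (r : ℕ)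
    (hr : 0 < r) (ω : K) (hω : ω ^ r = 1) (m : ℕ → ℕ) (c : ℕ) (hc : c < r)
    (hsym : ∀ j ∈ Finset.range r, m ((2 * c + r - j) % r) = m j)
    (hM : M.charpoly = ∏ j ∈ Finset.range r, (X - C (ω ^ (r - c) * ω ^ j)) ^ m j) :
    (M⁻¹).charpoly = M.charpoly := by
  classical
  have hω0 : ω ≠ 0 := by
    rintro rfl
    rw [zero_pow hr.ne'] at hω
    exact zero_ne_one hω
  obtain ⟨lam, hlam⟩ : ∃ lam : ℕ → K, ∀ j, lam j = ω ^ (r - c) * ω ^ j := ⟨_, fun _ => rfl⟩
  have hlam0 : ∀ j, lam j ≠ 0 := fun j => by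
    rw [hlam]
    exact mul_ne_zero (pow_ne_zero _ hω0) (pow_ne_zero _ hω0)
  obtain ⟨iv, hiv⟩ : ∃ iv : ℕ → ℕ, ∀ j, iv j = (2 * c + r - j) % r := ⟨_, fun _ => rfl⟩
  have hiv_mem : ∀ j ∈ Finset.range r, iv j ∈ Finset.range r := fun j _ => by
    rw [hiv]
    exact Finset.mem_range.mpr (Nat.mod_lt _ hr)
  have hiv_iv : ∀ j ∈ Finset.range r, iv (iv j) = j := by
    intro j hj
    rw [Finset.mem_range] at hj
    rw [hiv, hiv]
    exact invchar_mod_invol r c j hr hj
  have hlam_iv : ∀ j ∈ Finset.range r, lam j * lam (iv j) = 1 := by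
    intro j hj
    rw [Finset.mem_range] at hj
    rw [hlam, hlam, hiv]
    have h1 : ω ^ ((2 * c + r - j) % r) = ω ^ (2 * c + r - j) :=
      (pow_eq_pow_mod (2 * c + r - j) hω).symm
    rw [h1, ← pow_add, ← pow_add, ← pow_add]
    have h2 : r - c + j + (r - c + (2 * c + r - j)) = r * 3 := by omega
    rw [h2, pow_mul, hω, one_pow]
  have hM' : M.charpoly = ∏ j ∈ Finset.range r, (X - C (lam j)) ^ m j := by
    rw [hM]
    exact Finset.prod_congr rfl (fun j _ => by rw [hlam])
  obtain ⟨k, hk⟩ : ∃ k : K, k = ∏ j ∈ Finset.range r, (-(lam j)) ^ m j := ⟨_, rfl⟩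
  -- the reverse of the characteristic polynomial
  have hrev : M.charpoly.reverse = C k * M.charpoly := by
    have h1 : M.charpoly.reverse = ∏ j ∈ Finset.range r, (1 - C (lam j) * X) ^ m j := by
      rw [hM', invchar_reverse_prod]
      exact Finset.prod_congr rfl (fun j _ => by
        rw [invchar_reverse_pow, invchar_reverse_linear])
    have h2 : ∀ j ∈ Finset.range r, (1 - C (lam j) * X : K[X]) ^ m j =
        C ((-(lam j)) ^ m j) * (X - C (lam (iv j))) ^ m (iv j) := by
      intro j hj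
      have h3 : m (iv j) = m j := by
        rw [hiv]
        exact hsym j hj
      have h4 : (1 - C (lam j) * X : K[X]) = C (-(lam j)) * (X - C (lam (iv j))) := by
        have h5 : (C (lam j) * C (lam (iv j)) : K[X]) = 1 := by
          rw [← C_mul, hlam_iv j hj, C_1]
        rw [C_neg]
        linear_combination (-1 : K[X]) * h5
      rw [h3, h4, mul_pow, ← C_pow]
    rw [h1, Finset.prod_congr rfl h2, Finset.prod_mul_distrib, ← map_prod, ← hk]
    congr 1
    rw [hM']
    exact Finset.prod_nbij' iv iv hiv_mem hiv_mem hiv_iv hiv_iv (fun _ _ => rfl)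
  -- invertibility
  have hcoeff : M.charpoly.coeff 0 ≠ 0 := by
    rw [coeff_zero_eq_eval_zero, hM', eval_prod]
    rw [Finset.prod_ne_zero_iff]
    intro j _
    rw [eval_pow, eval_sub, eval_X, eval_C, zero_sub]
    exact pow_ne_zero _ (neg_ne_zero.mpr (hlam0 j))
  have hdet : M.det ≠ 0 := by
    rw [Matrix.det_eq_sign_charpoly_coeff]
    exact mul_ne_zero (pow_ne_zero _ (neg_ne_zero.mpr one_ne_zero)) hcoeff
  have hu : IsUnit M := (Matrix.isUnit_iff_isUnit_det M).mpr (isUnit_iff_ne_zero.mpr hdet)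
  have hq : (M⁻¹).charpoly =
      C ((-1) ^ (Fintype.card (Fin n)) * Ring.inverse M.det * k) * M.charpoly := by
    rw [Matrix.charpoly_inv M hu, ← Matrix.reverse_charpoly, hrev]
    simp only [map_mul, map_pow, map_neg, map_one]
    ring
  have hmon := Matrix.charpoly_monic M⁻¹
  have hmonM := Matrix.charpoly_monic M
  have hlead : (-1) ^ (Fintype.card (Fin n)) * Ring.inverse M.det * k = 1 := by
    have h1 := congrArg Polynomial.leadingCoeff hq
    rw [Polynomial.leadingCoeff_mul, Polynomial.leadingCoeff_C, hmon.leadingCoeff,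
      hmonM.leadingCoeff, mul_one] at h1
    exact h1.symm
  rw [hq, hlead, map_one, one_mul]

end Cfsg.Agent.Lib.Helper59.Uf
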