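import Mathlib
import Cfsg.Agent.Lib.Helper47.GUSim
import Cfsg.Agent.Lib.Helper47.InvSL
import Cfsg.Agent.Lib.Helper47.SUCount

/-!
# S5982 piece UF-SELFDUAL2 (project of helper96)

`selfdual_of_sq_one`: an involution `A` in odd characteristic is conjugate to its
`σ`-conjugate transpose; the conjugating matrix is an invariant sesquilinear form.
-/

set_option autoImplicit false

namespace Cfsg.Agent.Lib.Helper59.Uf

open Polynomial Matrix

theorem selfdual_of_sq_one {F : Type*} [Field F] [Fintype F] (σ : F →+* F) (h2 : (2 : F) ≠ 0)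
    {n : ℕ} (A : Matrix (Fin n) (Fin n) F) (hA : A * A = 1) :
    ∃ S : Matrix (Fin n) (Fin n) F, IsUnit S.det ∧
      Cfsg.Agent.Lib.Helper47.sT σ A * S * A = S := by
  classical
  have hA1 : A * A = (1 : F) • (1 : Matrix (Fin n) (Fin n) F) := by
    rw [one_smul, hA]
  have hB : Cfsg.Agent.Lib.Helper47.sT σ A * Cfsg.Agent.Lib.Helper47.sT σ A = 1 := by
    rw [← Cfsg.Agent.Lib.Helper47.sT_mul, hA, Cfsg.Agent.Lib.Helper47.sT_one]
  have hB1 : Cfsg.Agent.Lib.Helper47.sT σ A * Cfsg.Agent.Lib.Helper47.sT σ A =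
      (1 : F) • (1 : Matrix (Fin n) (Fin n) F) := by
    rw [one_smul, hB]
  have hsA : Module.End.IsSemisimple (toLin' A) := by
    rcases Cfsg.Agent.Lib.Helper47.inv_classes A 1 one_ne_zero hA1 with ⟨_, hs, _⟩ | ⟨h, _⟩
    · exact hs
    · exact absurd h h2
  have hsB : Module.End.IsSemisimple (toLin' (Cfsg.Agent.Lib.Helper47.sT σ A)) := by
    rcases Cfsg.Agent.Lib.Helper47.inv_classes (Cfsg.Agent.Lib.Helper47.sT σ A) 1 one_ne_zero hB1
      with ⟨_, hs, _⟩ | ⟨h, _⟩
    · exact hs
    · exact absurd h h2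
  have hchar : A.charpoly = (Cfsg.Agent.Lib.Helper47.sT σ A).charpoly := by
    rw [Cfsg.Agent.Lib.Helper47.charpoly_sT]
    rcases Cfsg.Agent.Lib.Helper47.inv_classes A 1 one_ne_zero hA1 with ⟨_, _, h⟩ | ⟨h, _⟩
    · rcases h with ⟨c, a, b, hc, _, hch⟩ | ⟨hno, _⟩
      · have hσc : σ c = c := by
          have h3 : (c - 1) * (c + 1) = 0 := by
            linear_combination (-1 : F) * hc
          rcases mul_eq_zero.mp h3 with h | h
          · have h4 : c = 1 := sub_eq_zero.mp h
            rw [h4, map_one]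
          · have h4 : c = -1 := eq_neg_of_add_eq_zero_left h
            rw [h4, map_neg, map_one]
        have hlin : ∀ d : F, σ d = d → (X - C d : F[X]).map σ = X - C d := by
          intro d hd
          rw [Polynomial.map_sub, Polynomial.map_X, Polynomial.map_C, hd]
        rw [hch, Polynomial.map_mul, Polynomial.map_pow, Polynomial.map_pow, hlin c hσc,
          hlin (-c) (by rw [map_neg, hσc])]
      · exact absurd (one_pow 2) (hno 1)
    · exact absurd h h2
  obtain ⟨P, hP, hPA⟩ := Cfsg.Agent.Lib.Helper47.exists_conj_matrix A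
    (Cfsg.Agent.Lib.Helper47.sT σ A) hsA hsB hchar
  refine ⟨P, hP, ?_⟩
  rw [mul_assoc, hPA, ← mul_assoc, hB, one_mul]

end Cfsg.Agent.Lib.Helper59.Uf
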