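import Cfsg.Agent.Lib.Helper22.W2Defs

/-!
# Project W2 (helper22, S4707), piece GRAMA

The Gram identity for the differences `fc χ v - fc χ 0` (pure algebra from the Gram identity
and the integrality of the Fourier coefficients).
-/

set_option autoImplicit false

namespace Cfsg.Agent.Lib.Helper59.W2

open Cfsg Cfsg.Agent.Lib.Helper22.W2
open scoped ComplexConjugate

universe u

variable {G : Type u} [Group G] [Fintype G]

/-- PIECE GRAMA -/
theorem gramA [Fintype (IrrCharacter G)] (p : ℕ) [Fact p.Prime] (w : ℂ) (z : G) (κ : ℂ)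
    (hgram : ∀ v v' : ZMod p,
      ∑ χ : IrrCharacter G, fc p w z χ.1 v * conj (fc p w z χ.1 v') =
        κ + (if v = v' then 1 else 0) + (if v = -v' then 1 else 0))
    (hnat : ∀ (χ : IrrCharacter G) (u : ZMod p), ∃ n : ℕ, fc p w z χ.1 u = (n : ℂ))
    (v v' : ZMod p) (hv : v ≠ 0) (hv' : v' ≠ 0) :
    ∑ χ : IrrCharacter G, (fc p w z χ.1 v - fc p w z χ.1 0) * (fc p w z χ.1 v' - fc p w z χ.1 0) =
      (if v = v' then 1 else 0) + (if v = -v' then 1 else 0) + 2 := by
  have hB : ∀ a b : ZMod p, ∑ χ : IrrCharacter G, fc p w z χ.1 a * fc p w z χ.1 b =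
      κ + (if a = b then 1 else 0) + (if a = -b then 1 else 0) := by
    intro a b
    rw [← hgram a b]
    refine Finset.sum_congr rfl fun χ _ => ?_
    obtain ⟨n, hn⟩ := hnat χ b
    rw [hn, Complex.conj_natCast]
  have hexp : ∀ χ : IrrCharacter G,
      (fc p w z χ.1 v - fc p w z χ.1 0) * (fc p w z χ.1 v' - fc p w z χ.1 0) =
      fc p w z χ.1 v * fc p w z χ.1 v' - fc p w z χ.1 v * fc p w z χ.1 0 -
        fc p w z χ.1 0 * fc p w z χ.1 v' + fc p w z χ.1 0 * fc p w z χ.1 0 := fun χ => by ring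
  have hsum : ∑ χ : IrrCharacter G,
      (fc p w z χ.1 v - fc p w z χ.1 0) * (fc p w z χ.1 v' - fc p w z χ.1 0) =
      ∑ χ : IrrCharacter G, fc p w z χ.1 v * fc p w z χ.1 v' -
        ∑ χ : IrrCharacter G, fc p w z χ.1 v * fc p w z χ.1 0 -
        ∑ χ : IrrCharacter G, fc p w z χ.1 0 * fc p w z χ.1 v' +
        ∑ χ : IrrCharacter G, fc p w z χ.1 0 * fc p w z χ.1 0 := by
    rw [← Finset.sum_sub_distrib, ← Finset.sum_sub_distrib, ← Finset.sum_add_distrib]
    exact Finset.sum_congr rfl fun χ _ => hexp χ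
  rw [hsum, hB, hB, hB, hB]
  have h1 : ¬ (v = 0) := hv
  have h2 : ¬ (v = -0) := by rw [neg_zero]; exact hv
  have h3 : ¬ ((0 : ZMod p) = v') := fun h => hv' h.symm
  have h4 : ¬ ((0 : ZMod p) = -v') := fun h => hv' (neg_eq_zero.mp h.symm)
  rw [if_neg h1, if_neg h2, if_neg h3, if_neg h4, if_pos rfl, if_pos neg_zero.symm]
  ring

end Cfsg.Agent.Lib.Helper59.W2
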